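import Cfsg.Agent.CW.D1
import Cfsg.Agent.XL.A1t
import Cfsg.Agent.XL.Desc

/-! # Groups of type `Co₁`: the starting amalgam -/

set_option autoImplicit false
set_option maxRecDepth 100000

namespace Cfsg.Agent.CW

open Cfsg Cfsg.Spor Cfsg.Agent.GT Cfsg.Agent.TT Cfsg.Agent.TC Cfsg.Agent.XL Cfsg.Agent.M24 Cfsg.Agent.Leech
  Cfsg.Agent.CoS Cfsg.Agent.Cl.Orth Subgroup MulAction

variable {l ls : List ℕ}

theorem cen (h : Valid mt l) {x : Co1} {X : ℕ} (hx : mt x = X)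
    (hc : lall ls (fun i => cmm (lget l onem i) X) = true) : Mb (al l) ls ≤ C1[x] := Mb.le fun i hi =>
  mem_cent1.2 (cmm_iff.1 (by rw [mt_al h, hx]; exact (lall_iff _ _).1 hc i hi))

theorem mt_s0 : mt s0 = lget cB onem 1 := mt_al vB 1

theorem cD_le : Mb (al cD) (List.range 19) ≤ C1[z0] ⊓ C1[s0] :=
  le_inf (cen vcD mt_z0 (by decide +kernel)) (cen vcD mt_s0 (by decide +kernel))

theorem cC_le : Mb (al cC) [0, 1, 3, 5, 7, 8] ≤ C1[z0] := cen vcC mt_z0 (by decide +kernel)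

theorem exD : C1[z0] ⊓ C1[s0] = Mb (al cD) (List.range 19) :=
  ((ma vcD 19).exact cD_le (Ls := kD) (N := 330301440) card_nil (by
    rw [inf_comm]
    exact card_conj_le vcC (n := 270) (ps := psC) (t := tS) mt_s0 cC_le card_C0.le (by decide +kernel))
    (by decide +kernel)).2.1

theorem hs (H : Subgroup Co1) (h : ∀ u ∈ C1[z0] ⊓ C1[s0], u * u ∈ H) : C1[z0] ⊓ C1[s0] ≤ H := by
  rw [exD] at h ⊢
  exact (md vcD 19).sqgen (sq := fun i => sqD.getD i []) (by decide +kernel) H h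

section refl

variable {V : Type*} [AddCommGroup V] [Module (ZMod 2) V] {q : QuadraticForm (ZMod 2) V} {π : Co1 → V}

/-- reflection on the extraspecial group -/
noncomputable def rf (X Y : ℕ) : ℕ := bif' (cmm Y X) Y (mulf Y X)

theorem refl_pi (h : XQ q Q1 z0 π) {x y : Co1} (hx : x ∈ Q1) (h4 : x * x = z0) (hy : y ∈ Q1) :
    ∃ y' ∈ Q1, mt y' = rf (mt x) (mt y) ∧ π y' = (refl q (π x)).1 (π y) := by
  rw [refl_app2 ((h.sq_z hx).1 h4), rf, bif'_eq]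
  by_cases c : Commute y x
  · exact ⟨y, hy, by rw [if_pos (cmm_iff.2 c)], by rw [(h.comm_iff hy hx).1 c, zero_smul, add_zero]⟩
  · exact ⟨y * x, mul_mem hy hx, by rw [if_neg fun a => c (cmm_iff.1 a), mt_mul], by
      rw [z2_ne fun a => c ((h.comm_iff hy hx).2 a), one_smul, h.mul _ hy _ hx]⟩

theorem ac_of_gens (h : XQ q Q1 z0 π) {c : Co1} (hc : c ∈ C1[z0]) {γ : OG q}
    (e : ∀ y ∈ Q1, mt y ∈ lQ → π (c * y * c⁻¹) = γ.1 (π y)) : Ac Q1 z0 π c γ := by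
  obtain ⟨g, hg⟩ := h.exists_ac hc
  let H : Subgroup Co1 :=
    { carrier := {y | y ∈ Q1 ∧ g.1 (π y) = γ.1 (π y)}
      one_mem' := ⟨one_mem _, by rw [h.π1, map_zero, map_zero]⟩
      mul_mem' := fun a b => ⟨mul_mem a.1 b.1, by rw [h.mul _ a.1 _ b.1, map_add, map_add, a.2, b.2]⟩
      inv_mem' := fun a => ⟨inv_mem a.1, by rw [h.πinv a.1, a.2]⟩ }
  exact ⟨hc, fun y hy => (hg.2 y hy).trans (Q1_le (H := H) (fun y a b => ⟨a, (hg.2 y a).symm.trans (e y a b)⟩) hy).2⟩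

/-- equality modulo the centre -/
noncomputable def eqz (A B : ℕ) : Bool := bor (Nat.beq A B) (Nat.beq A (mulf B mZ))

theorem pi_eqz (h : XQ q Q1 z0 π) {x y : Co1} (hx : x ∈ Q1) (hy : y ∈ Q1) (e : eqz (mt y) (mt x) = true) :
    π x = π y := by
  rw [eqz, bor_eq, Bool.or_eq_true, Nat.beq_eq, Nat.beq_eq, ← mt_z0, ← mt_mul] at e
  exact (h.eq_iff hx hy).2 (e.imp (fun e => mt_inj e) fun e => mt_inj e)

theorem tw {e f : V} {g : Co1} (hA : XP q e f (dt Q1 z0 g π)) (Δ K : Subgroup (Co1 × Co1))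
    (hσ : (refl q (π (al cC 6))).1 e = e) (a : DG (dt Q1 z0 g π) ((dt Q1 z0 g π).tw (refl q (π (al cC 6)))) Δ)
    (b : KG (dt Q1 z0 g π) ((dt Q1 z0 g π).tw (refl q (π (al cC 6)))) Δ K) : False := by
  have k : KH q e f _ _ Δ K := ⟨hA, hA.twist hσ, a, b⟩
  have h : XQ q Q1 z0 π := hA.xq
  have hx : al cC 6 ∈ Q1 := mem_Q1.2 (by rw [mt_al vcC]; decide +kernel)
  have h4 : al cC 6 * al cC 6 = z0 := mt_inj (by simp only [mt_mul, mt_al vcC, mt_z0]; decide +kernel)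
  have cc : al cC 7 * al cC 7 = 1 := mt_inj (by simp only [mt_mul, mt_al vcC, mt_one]; decide +kernel)
  have di : (al cC 8)⁻¹ = al cC 9 := inv_eq_of_mul_eq_one_right
    (mt_inj (by simp only [mt_mul, mt_al vcC, mt_one]; decide +kernel))
  have hc : al cC 7 ∈ C1[z0] := cC_le (Mb.of (by decide))
  have hd : al cC 8 ∈ C1[z0] := cC_le (Mb.of (by decide))
  obtain ⟨d, m⟩ := b.fst _ hc
  obtain ⟨γ, a1⟩ := h.exists_ac hc
  have a2 := k.ac m a1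
  have dd : d * d = 1 := k.eq_one (by simpa [cc] using mul_mem m m)
  set σ := refl q (π (al cC 6))
  have a3 : Ac Q1 z0 π d (σ * γ * σ) := ⟨a2.1, fun y hy => by
    have := congrArg σ⁻¹.1 (show σ.1 (π (d * y * d⁻¹)) = γ.1 (σ.1 (π y)) from a2.2 y hy)
    rwa [OG.inv_apply_apply, refl_inv] at this⟩
  have a4 : Ac Q1 z0 π (al cC 8) (σ * γ * σ) := ac_of_gens h hd fun y hy hl => by
    obtain ⟨y1, b1, c1, d1⟩ := refl_pi h hx h4 hy
    obtain ⟨y2, b2, c2, d2⟩ := refl_pi h hx h4 (h.conjQ hc b1)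
    rw [OG.mul_apply, OG.mul_apply, ← d1, ← a1.2 _ b1, ← d2]
    refine pi_eqz h (h.conjQ hd hy) b2 ?_
    rw [c2, di, inv_of_sq cc]
    simp only [mt_mul, c1, mt_al vcC]
    generalize mt y = Y at hl
    revert Y
    decide +kernel
  have := Q1_all (f := fun Y => force (mulf (lget cC onem 8) Y) fun B => !Nat.beq (mulf B B) onem)
    (by decide +kernel) (h.mem_of_ac2 a4 a3)
  rw [force_eq, ← mt_al vcC, ← mt_mul, mul_inv_cancel_left, ← mt_mul, dd, mt_one, Nat.beq_refl] at this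
  exact nomatch this

end refl

variable {G : Type*} [Group G] [Finite G] {Q : Subgroup G} {z g : G}

theorem start (h : LT Q z g 4 174182400) : ∃ K M : Subgroup (Co1 × G), RH z0 s0 z K M ∧
    ∀ p ∈ K, p.1 ∈ Q1 ↔ p.2 ∈ Q := by
  obtain ⟨π, hB⟩ := h.xp8
  obtain ⟨π0, hA⟩ := lt0.xp8
  have hx : al cC 6 ∈ Q1 := mem_Q1.2 (by rw [mt_al vcC]; decide +kernel)
  have hσ : (refl (qP 4) (π0 (al cC 6))).1 (vP 4 1) = vP 4 1 := refl_of_orth (by
    rw [← show π0 (g0 * z0 * g0⁻¹) = _ from hA.xt.πs, ← hA.xq.comm_iff lt0.sQ hx, gz, ← cmm_iff, mt_s0, mt_al vcC]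
    decide +kernel)
  have k : ∀ π1 Δ K, KH (qP 4) (vP 4 1) (vP 4 16) (dt Q1 z0 g0 π1) (dt Q z g π) Δ K →
      ∃ K M : Subgroup (Co1 × G), RH z0 s0 z K M ∧ ∀ p ∈ K, p.1 ∈ Q1 ↔ p.2 ∈ Q := fun π1 Δ K hK => by
    obtain ⟨M, r⟩ := hK.rh (by simpa only [gz] using hs)
    simp only [gz] at r
    refine ⟨K, M, r, fun p hp => ⟨fun a => (hK.dg.mem _ (hK.mem_Δ hp a)).2.1, fun a => ?_⟩⟩
    obtain ⟨x, b⟩ := hK.dg.snd hK.hA hK.hB a
    exact hK.uniq' (hK.kg.dg b) hp ▸ (hK.dg.mem _ b).1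
  rcases exists_KG_tw hA hB (by rw [rkP]; norm_num) cox8 (w := w8) (by decide +kernel) w8_ok pb8 pb8 cardE8.ge hσ
    (fun Δ K => tw hA Δ K hσ) with ⟨Δ, K, a, b⟩ | ⟨Δ, K, a, b⟩
  exacts [k _ Δ K ⟨hA, hB, a, b⟩, k _ Δ K ⟨hA.twist hσ, hB, a, b⟩]

theorem start_stmt (hz : orderOf z = 2) {Q : Subgroup C1[z]} [Q.Normal]
    (hF : generalizedFittingSubgroup C1[z] = Q) (hQ : IsExtraspecial 2 Q) (hcard : Nat.card Q = 2 ^ 9)
    (e : C1[z] ⧸ Q ≃* Omega (ZMod 2) (quadFormPlus 4 (ZMod 2)))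
    (hn : ∃ g : G, (∃ hq : g * z * g⁻¹ ∈ C1[z], (⟨g * z * g⁻¹, hq⟩ : C1[z]) ∈ Q) ∧ g * z * g⁻¹ ≠ z) :
    ∃ g, LT (Q.map (C1[z]).subtype) z g 4 174182400 ∧ ∃ K M : Subgroup (Co1 × G), RH z0 s0 z K M ∧
      ∀ p ∈ K, p.1 ∈ Q1 ↔ p.2 ∈ Q.map (C1[z]).subtype :=
  let ⟨g, h⟩ := LT.of_stmt (w := 4) hz hF hQ hcard ((Nat.card_congr (e.trans om8).toEquiv).trans cardE8) hn
  ⟨g, h, start h⟩

/-- twisting by an inner automorphism -/
def twi {X : Type*} [Group X] (k : G) (K : Subgroup (X × G)) : Subgroup (X × G) :=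
  K.comap ((MonoidHom.id X).prodMap (MulAut.conj k).toMonoidHom)

omit [Finite G] in
theorem mem_twi {X : Type*} [Group X] {k : G} {K : Subgroup (X × G)} {p : X × G} :
    p ∈ twi k K ↔ (p.1, k * p.2 * k⁻¹) ∈ K := Iff.rfl

omit [Finite G] in
theorem rh_twi {X : Type*} [Group X] {z0 s0 : X} {K M : Subgroup (X × G)} (h : RH z0 s0 z K M) {k : G}
    (hk : k ∈ C1[z]) : RH z0 s0 z (twi k K) (twi k M) := by
  have e : k * z * k⁻¹ = z := commute_iff_conj.1 (mem_cent1.1 hk)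
  have g : ∀ {K : Subgroup (X × G)}, Gr K → Gr (twi k K) := fun h p hp a =>
    Prod.ext a (conj_eq_one_iff.1 (congrArg Prod.snd (h _ hp a) :))
  have s : ∀ {K : Subgroup (X × G)} {c d}, (c, d) ∈ K → (c, k⁻¹ * d * k) ∈ twi k K := fun a =>
    mem_twi.2 (by simpa [mul_assoc] using a)
  refine ⟨⟨g h.kz.gr, fun p hp a => Prod.ext (congrArg Prod.fst (h.kz.gr' _ hp (by simp [a])) :) a,
    fun c hc => let ⟨_, a⟩ := h.kz.fst c hc; ⟨_, s a⟩,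
    fun d hd => h.kz.snd _ (mul_mem (mul_mem hk hd) (inv_mem hk)),
    fun p hp => mem_cent1.2 (Prod.ext (mem_cent1.1 (h.kz.c1 hp) :) (mem_cent1.1 ?_)),
    mem_twi.2 (e.symm ▸ h.kz.mem)⟩, g h.gn, fun c hc => let ⟨_, a⟩ := h.nf c hc; ⟨_, s a⟩,
    fun p hp => (h.nn _ (mem_twi.1 hp) :), fun p hp a => h.cp _ (mem_twi.1 hp) a⟩
  exact (mul_mem_cancel_left hk).1 ((mul_mem_cancel_right (inv_mem hk)).1 (h.kz.c2 hp))

end Cfsg.Agent.CW
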