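import Cfsg.Agent.CW.GA
import Cfsg.Agent.CX.M3

/-! # The conjugation action on bit matrices -/

set_option autoImplicit false
set_option maxRecDepth 100000

namespace Cfsg.Agent.CW

open Cfsg Cfsg.Spor Cfsg.Agent.GT Cfsg.Agent.TT Cfsg.Agent.TC Cfsg.Agent.XL Cfsg.Agent.M24 Cfsg.Agent.Leech
  Cfsg.Agent.CoS Subgroup MulAction

/-- `(13)(24)` -/
noncomputable def t0 : Co1 := xx 1 * xx 2
/-- `(14)(23)` -/
noncomputable def t1 : Co1 := xx 2 * xx 1
/-- `(13)(67)` -/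
noncomputable def oo : Co1 := xx 1 * xx 4 * xx 5 * xx 5 * xx 4
/-- `(67)(89)` -/
noncomputable def uu : Co1 := xx 4 * xx 6 * xx 5 * xx 7 * xx 4 * xx 6
/-- the element of order seven -/
noncomputable def v0 : Co1 := al cB 12
/-- the element of order three -/
noncomputable def w0 : Co1 := al cB 13
/-- the alternating group of degree nine -/
noncomputable def A9 : Subgroup Co1 := Mb (al cB) [5, 6, 7, 8, 9, 10, 11]
/-- the alternating group of degree seven -/
noncomputable def A7 : Subgroup Co1 := Mb (al cB) [5, 6, 7, 8, 9]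

theorem mulf_lt (A B : ℕ) : mulf A B < 2 ^ 576 := (muln_ok A B le_rfl).1

theorem col_mulf (A B : ℕ) {j : ℕ} (hj : j < 24) : col (mulf A B) j = apm A (col B j) := (muln_ok A B le_rfl).2 j hj

theorem apm_mulf (A B : ℕ) : ∀ x < 2 ^ 24, apm (mulf A B) x = apm A (apm B x) :=
  bits_induction (by simp only [apm, apn_zero]) (fun i hi => by
    rw [apm, apn_pow, if_pos hi, col_mulf _ _ hi, show apm B (2 ^ i) = _ from apn_pow _ _ _, if_pos hi])
    fun x _ y _ a b => by simp only [apm] at a b ⊢; rw [apn_xor, apn_xor, apn_xor, a, b]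

theorem mulf_assoc (A B C : ℕ) : mulf (mulf A B) C = mulf A (mulf B C) :=
  eq_of_col (mulf_lt _ _) (mulf_lt _ _) fun j hj => by
    rw [col_mulf _ _ hj, col_mulf _ _ hj, col_mulf _ _ hj, apm_mulf _ _ _ (col_lt _ _)]

theorem one_mulf {A : ℕ} (h : A < 2 ^ 576) : mulf onem A = A := eq_of_col (mulf_lt _ _) h fun j hj => by
  obtain ⟨x, e⟩ := exists_cdx (col_lt A j)
  rw [col_mulf _ _ hj, ← e, ← mt_one, apm_mt, one_smul]

theorem mulf_one {A : ℕ} (h : A < 2 ^ 576) : mulf A onem = A := eq_of_col (mulf_lt _ _) h fun j hj => by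
  rw [col_mulf _ _ hj, show col onem j = 2 ^ j by revert j; decide +kernel, apm, apn_pow, if_pos hj]

/-- all matrices -/
def Mx : Type := {q : ℕ // q < 2 ^ 576}

noncomputable instance actMx : MulAction Co1 Mx where
  smul g q := ⟨mulf (mulf (mt g) q.1) (mt g⁻¹), mulf_lt _ _⟩
  one_smul q := Subtype.ext (show mulf (mulf (mt 1) q.1) (mt 1⁻¹) = q.1 by
    rw [inv_one, mt_one, one_mulf q.2, mulf_one q.2])
  mul_smul g h q := Subtype.ext (show mulf (mulf (mt (g * h)) q.1) (mt (g * h)⁻¹) =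
      mulf (mulf (mt g) (mulf (mulf (mt h) q.1) (mt h⁻¹))) (mt g⁻¹) by
    simp only [mul_inv_rev, mt_mul, mulf_assoc])

/-- the code of a matrix -/
def ix (q : Mx) : ℕ := q.1

theorem ix_inj : Function.Injective ix := fun _ _ => Subtype.ext

theorem ix_smul (g : Co1) {y : Co1} {q : Mx} (e : ix q = mt y) : ix (g • q) = mt (g * y * g⁻¹) := by
  rw [mt_mul, mt_mul, ← e]; rfl

/-- conjugation by a letter -/
noncomputable def fc (l iv : List ℕ) (i x : ℕ) : ℕ :=
  force (mulf (lget l onem i) x) fun y => mulf y (lget l onem (lget iv 0 i))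

variable {l iv ls ls0 : List ℕ} {k : ℕ}

theorem mc (h : Valid mt l) (hc : nall k (fun i =>
    Nat.beq (mulf (lget l onem i) (lget l onem (lget iv 0 i))) onem) = true) : Ma ix (al l) (fc l iv) k (2 ^ 576) :=
  ⟨ix_inj, fun i hi x => by
    have := (nall_iff _ _).1 hc i hi
    rw [Nat.beq_eq, ← mt_al h, ← mt_al h, ← mt_mul, ← mt_one] at this
    rw [fc, force_eq, ← mt_al h, ← mt_al h, eq_inv_of_mul_eq_one_right (mt_inj this)]; rfl,
    fun x => x.2, fun q hq => ⟨⟨q, hq⟩, rfl⟩⟩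

theorem hP_of {B : List ℕ} (hB : Valid mt B) {P : ℕ → ℕ → Bool} {C : Subgroup Co1}
    (h : ∀ g ∈ C, ∀ y, mt y ∈ B → P (mt y) (mt (g * y * g⁻¹)) = true) :
    ∀ g ∈ C, ∀ x : Mx, bor (!lm B (ix x)) (P (ix x) (ix (g • x))) = true := fun g hg x => by
  rw [bor_eq, Bool.or_eq_true, Bool.not_eq_true', ← Bool.not_eq_true, lm_iff]
  refine (em _).symm.imp_right fun a => ?_
  obtain ⟨y, e⟩ := hB _ a
  rw [ix_smul g e.symm, ← e]
  exact h g hg y (e ▸ a)

theorem fxs_ix {y : Co1} {p : List ℕ} : fxs Co1 ix (mt y :: p) = fxs Co1 ix p ⊓ C1[y] := by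
  let q : Mx := ⟨mt y, mt_lt y⟩
  refine (fxs_cons ix_inj q).trans (congrArg _ (Subgroup.ext fun g => ?_))
  rw [mem_stabilizer_iff, ← ix_inj.eq_iff, mem_cent1, ← mul_inv_eq_iff_eq_mul, ← mt_inj.eq_iff]
  exact Eq.congr_left (ix_smul g rfl)

section
variable {X Ω : Type*} [Group X] [Finite X] [MulAction X Ω] {idx : Ω → ℕ} {m : ℕ → X} {f : ℕ → ℕ → ℕ} {n : ℕ}
  {H : Subgroup X} {Ls : List Lvl}

theorem ma_lower (h : Ma idx m f k n) {N : ℕ}
    (hc : band (band (llt k ls) (Nat.beq (chainSize Ls) N)) (exChk f ls [] n Ls []) = true) :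
    N ≤ Nat.card (Mb m ls) := by
  simp only [band_eq, Bool.and_eq_true, llt_iff, Nat.beq_eq] at hc
  have a := (h.ex_aux hc.1.1 le_rfl hc.2).1
  rwa [fxs_nil, inf_top_eq, card_nil, mul_one, hc.1.2] at a

theorem ma_exact (h : Ma idx m f k n) (hH : Mb m ls ≤ H) {N N0 : ℕ} (h0 : N0 ≤ Nat.card (Mb m ls0))
    (hN : Nat.card H ≤ N) (hc : band (band (band (llt k ls) (Nat.beq (chainSize Ls * N0) N)) (exChk f ls ls0 n Ls []))
      (Nat.ble 1 (chainSize Ls)) = true) :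
    Nat.card (Mb m ls0) = N0 ∧ Ex idx H (Mb m ls0) Ls [] ∧ H = Mb m ls ∧ Nat.card H = N := by
  rw [band_eq, Bool.and_eq_true, Nat.ble_eq] at hc
  have c := hc.1
  simp only [band_eq, Bool.and_eq_true, llt_iff, Nat.beq_eq] at c
  have a := (h.ex_aux c.1.1 hH c.2).1
  rw [fxs_nil, inf_top_eq] at a
  have e := le_antisymm (Nat.le_of_mul_le_mul_left (a.trans (hN.trans c.1.2.ge)) hc.2) h0
  exact ⟨e, h.exact hH e hN hc.1⟩

end

theorem card_x1 : Nat.card C1[xx 1] = 3 * 448345497600 := by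
  have h := exists_Qt (y := xx 1) (by rw [CX.ord3]; decide)
  obtain ⟨φ, -⟩ := SZ.iso' (CX.dsc3.lt h)
  rw [card_eq_card_quotient_mul_card_subgroup ((zpowers (xx 1)).subgroupOf C1[xx 1]), ← Nat.card_congr φ.toEquiv,
    SZ.card_X, card_subgroupOf (zpowers_le.2 (mem_cent1.2 rfl)), Nat.card_zpowers, CX.ord3]

end Cfsg.Agent.CW
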