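import Cfsg.Agent.XL.Desc
import Cfsg.Agent.PG.Basic

/-! # Two steps of descent for an involution fixing a unique coset -/

set_option autoImplicit false

namespace Cfsg.Agent.CW

open Cfsg Cfsg.Agent.GT Cfsg.Agent.TT Cfsg.Agent.XL Cfsg.Agent.M24 Subgroup
open scoped commutatorElement

variable {G : Type*} [Group G] [Finite G] {E H L S S1 : Subgroup G} {z u z1 τ : G}

omit [Finite G] in
theorem uf_conj (h : UF E H z) {k : G} (hk : k ∈ H) : UF E H (k * z * k⁻¹) :=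
  ⟨h.le, mul_mem (mul_mem hk h.mem) (inv_mem hk), conj_mul_self k h.sq, by simpa using h.ne, fun g hg e =>
    (mul_mem_cancel_left (inv_mem hk)).1 (h.fix _ (mul_mem (inv_mem (h.le hk)) hg) (by simpa [mul_assoc] using e))⟩

omit [Finite G] in
theorem uf_cent (h : UF E H z) : E ⊓ C1[z] ≤ H := fun g hg =>
  h.fix g hg.1 (by rw [mul_assoc, ← mem_cent1.1 hg.2, inv_mul_cancel_left]; exact h.mem)

theorem uf_two (h : UF E H z) (hτ : τ ∈ H) (tt : τ * τ = 1) (t1 : τ ≠ 1) (n : ∀ e ∈ H, τ ≠ e * z * e⁻¹)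
    (hc : ∀ x ∈ H, x * x = 1 → x ≠ 1 → E ⊓ C1[x] ≤ H) : E ≤ H := fun g hg => by
  have g2 : g⁻¹ * z * g * (g⁻¹ * z * g) = 1 := by simpa using conj_mul_self g⁻¹ h.sq
  have gE : g⁻¹ * z * g ∈ E := mul_mem (mul_mem (inv_mem hg) (h.le h.mem)) hg
  have p : ∀ k : ℕ, (g⁻¹ * z * g * τ) ^ k ∈ E := fun k => pow_mem (mul_mem gE (h.le hτ)) k
  rcases Nat.even_or_odd (orderOf (g⁻¹ * z * g * τ)) with o | o
  · obtain ⟨k, -, w1, w2, w3, w4⟩ := exists_central_of_even g2 tt o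
    exact h.fix g hg (hc _ (hc τ hτ tt t1 ⟨p k, mem_cent1.2 w4.symm⟩) w2 w1 ⟨gE, mem_cent1.2 w3⟩)
  · obtain ⟨k, e⟩ := conj_of_odd g2 tt o (pow_orderOf_eq_one _)
    have hc := p k
    generalize (g⁻¹ * z * g * τ) ^ k = c at e hc
    have e' : τ = (g * c⁻¹)⁻¹ * z * (g * c⁻¹)⁻¹⁻¹ := by
      rw [← mul_inv_cancel_left c τ, ← mul_inv_cancel_right (c⁻¹ * τ) c, e]; group
    exact absurd e' (n _ (inv_mem (h.fix _ (mul_mem hg (inv_mem hc)) (by rw [inv_inv] at e'; exact e' ▸ hτ))))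

theorem uf_der2 (h : UF E H z) (hS : IsPiHallOf {2} S H) (zS : z ∈ S) (Sz : S ≤ C1[z]) (h0 : L ≤ H)
    (h1 : L ≤ ⁅L, L⁆) (h2 : ⁅⁅H, H⁆, ⁅H, H⁆⁆ ≤ L) (hz : z ∈ L) {k : ℕ} (hk : L.relIndex H = 2 ^ k) :
    ∃ E', UF E' L z ∧ (E' ≤ L → E ≤ H) := by
  have e1 : L ≤ ⁅H, H⁆ := h1.trans (commutator_mono h0 h0)
  have e2 : L = ⁅⁅H, H⁆, ⁅H, H⁆⁆ := le_antisymm (h1.trans (commutator_mono e1 e1)) h2
  have e3 := relIndex_mul_relIndex _ _ _ e1 (der1_le H)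
  obtain ⟨i, -, b1⟩ := (Nat.dvd_prime_pow Nat.prime_two).1 (hk ▸ Dvd.intro_left _ e3)
  obtain ⟨j, -, b2⟩ := (Nat.dvd_prime_pow Nat.prime_two).1 (hk ▸ Dvd.intro _ e3)
  obtain ⟨u1, s1, c1⟩ := h.der hS zS Sz (e1 hz) b1
  obtain ⟨u2, -, c2⟩ := u1.der s1 ⟨zS, e1 hz⟩ (inf_le_left.trans Sz) (e2 ▸ hz) (e2 ▸ b2)
  rw [← e2] at u2 c2
  exact ⟨_, u2, fun e => c1 (c2 e)⟩

/-- the local data in the last term -/
structure TS (L S1 D : Subgroup G) (z u z1 τ : G) : Prop where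
  cl : ∀ x ∈ L, x * x = 1 → x ≠ 1 → ∃ l ∈ L, x = l * z * l⁻¹ ∨ x = l * u * l⁻¹
  uL : u ∈ L
  uu : u * u = 1
  u1 : u ≠ 1
  nu : ∀ l ∈ L, u ≠ l * z * l⁻¹
  cz : ∃ l ∈ L, z1 = l * z * l⁻¹
  syl : IsPiHallOf {2} S1 (C1[u] ⊓ L)
  zS : z1 ∈ S1
  Sz : S1 ≤ C1[z1]
  der : ⁅C1[u] ⊓ L, C1[u] ⊓ L⁆ = D
  zD : z1 ∈ D
  idx : ∃ j, D.relIndex (C1[u] ⊓ L) = 2 ^ j
  cl1 : ∀ x ∈ D, x * x = 1 → x ≠ 1 → ∃ l ∈ L, x = l * z * l⁻¹ ∨ x * u = l * z * l⁻¹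
  τD : τ ∈ D
  ττ : τ * τ = 1
  τ1 : τ ≠ 1
  nτ : ∀ e ∈ D, τ ≠ e * z1 * e⁻¹

theorem TS.le {D : Subgroup G} (s : TS L S1 D z u z1 τ) (h : UF E L z) : E ≤ L := by
  have hu : E ⊓ C1[u] ≤ L := by
    obtain ⟨l, hl, e⟩ := s.cz
    obtain ⟨j, hj⟩ := s.idx
    have a := e ▸ uf_conj h hl
    have b : UF (E ⊓ C1[u]) (C1[u] ⊓ L) z1 := ⟨le_inf (inf_le_right.trans h.le) inf_le_left, s.syl.1 s.zS, a.sq, a.ne,
      fun g hg o => ⟨hg.2, a.fix g hg.1 o.2⟩⟩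
    obtain ⟨c, -, d⟩ := b.der s.syl s.zS s.Sz (s.der ▸ s.zD) (s.der ▸ hj)
    refine (d (uf_two c (s.der ▸ s.τD) s.ττ s.τ1 (s.der ▸ s.nτ) fun x hx x2 x1 g hg => ?_)).trans inf_le_right
    have g1 := der1_le _ hg.1
    have : g ∈ L := by
      obtain ⟨m, hm, o | o⟩ := s.cl1 x (s.der ▸ hx) x2 x1 <;> refine uf_cent (uf_conj h hm) ⟨g1.1, o ▸ ?_⟩
      exacts [hg.2, mem_cent1.2 ((show Commute g x from mem_cent1.1 hg.2).mul_right (mem_cent1.1 g1.2))]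
    exact c.fix g hg.1 (by
      simpa using conj_mem_of_mem_norm (self_le_norm_der1 _ (inv_mem (mem_inf.2 ⟨g1.2, this⟩))) c.mem)
  refine uf_two h s.uL s.uu s.u1 s.nu fun x hx x2 x1 g hg => ?_
  obtain ⟨l, hl, rfl | rfl⟩ := s.cl x hx x2 x1
  · exact uf_cent (uf_conj h hl) hg
  · have := hu (mem_inf.2 ⟨mul_mem (mul_mem (inv_mem (h.le hl)) hg.1) (h.le hl), mem_conj.1 (conj_cent1 l u ▸ hg.2)⟩)
    exact (mul_mem_cancel_left (inv_mem hl)).1 ((mul_mem_cancel_right hl).1 this)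

/-! ### Transport along a graph -/

variable {X : Type*} [Group X] {T : Subgroup (X × G)} {H0 A B : Subgroup X} {a : X} {x : G}

/-- graph of an embedding of `H0` -/
structure Bi (T : Subgroup (X × G)) (H0 : Subgroup X) : Prop where
  gr : Gr T
  gr' : ∀ p ∈ T, p.2 = 1 → p = 1
  fst : ∀ c ∈ H0, ∃ d, (c, d) ∈ T
  le : ∀ p ∈ T, p.1 ∈ H0

/-- the image of a subgroup -/
def up (T : Subgroup (X × G)) (A : Subgroup X) : Subgroup G :=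
  (T ⊓ A.comap (MonoidHom.fst X G)).map (MonoidHom.snd X G)

omit [Finite G]

theorem mem_up : x ∈ up T A ↔ ∃ a ∈ A, (a, x) ∈ T :=
  ⟨by rintro ⟨p, hp, rfl⟩; exact ⟨p.1, hp.2, hp.1⟩, fun ⟨a, b, c⟩ => ⟨(a, x), ⟨c, b⟩, rfl⟩⟩

theorem up_mono (h : A ≤ B) : up T A ≤ up T B := map_mono (inf_le_inf_left _ (comap_mono h))

theorem KZ_bi {y : X × G} (h : KZ T y) : Bi T C1[y.1] := ⟨h.gr, h.gr', h.fst, fun _ => h.c1⟩

variable (b : Bi T H0)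
include b

theorem Bi.ext' {p r : X × G} (a : p ∈ T) (c : r ∈ T) (e : p.2 = r.2) : p = r :=
  (inv_mul_eq_one.1 (b.gr' _ (mul_mem (inv_mem c) a) (by simp [e]))).symm

theorem Bi.eq {p r : X × G} (a : p ∈ T) (c : r ∈ T) : p.2 = r.2 ↔ p.1 = r.1 :=
  ⟨fun e => congrArg _ (b.ext' a c e), fun e => congrArg _ (b.gr.ext a c e)⟩

theorem Bi.mem (h : (a, x) ∈ T) : x ∈ up T A ↔ a ∈ A :=
  mem_up.trans ⟨fun ⟨_, c, d⟩ => (show _ = a from (b.eq d h).1 rfl) ▸ c, fun c => ⟨a, c, h⟩⟩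

theorem Bi.fst_up (h : A ≤ H0) : (T ⊓ A.comap (MonoidHom.fst X G)).map (MonoidHom.fst X G) = A :=
  le_antisymm (by rintro _ ⟨p, hp, rfl⟩; exact hp.2) fun a ha => let ⟨d, c⟩ := b.fst a (h ha); ⟨(a, d), ⟨c, ha⟩, rfl⟩

theorem Bi.card (h : A ≤ H0) : Nat.card (up T A) = Nat.card A := by
  rw [up, card_map_of (S := T ⊓ _) fun p a => b.gr' p a.1,
    ← card_map_of (S := T ⊓ _) (φ := MonoidHom.fst X G) fun p a => b.gr p a.1, b.fst_up h]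

theorem Bi.comm (h : A ≤ H0) : ⁅up T A, up T A⁆ = up T ⁅A, A⁆ := by
  have e := map_commutator (T ⊓ A.comap (MonoidHom.fst X G)) (T ⊓ A.comap (MonoidHom.fst X G)) (MonoidHom.fst X G)
  rw [b.fst_up h] at e
  have l := (der1_le (T ⊓ A.comap (MonoidHom.fst X G))).trans inf_le_left
  rw [up, ← map_commutator, up, ← e]
  exact congrArg _ (le_antisymm (le_inf l (le_comap_map _ _)) fun p ⟨c, r, d, o⟩ => b.gr.ext (l d) c o ▸ d)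

theorem Bi.cent (h : (a, x) ∈ T) : C1[x] ⊓ up T A = up T (C1[a] ⊓ A) := Subgroup.ext fun y => by
  refine ⟨fun ⟨c, d⟩ => ?_, fun c => ?_⟩
  · obtain ⟨e, he, d⟩ := mem_up.1 d
    exact mem_up.2 ⟨e, ⟨mem_cent1.2 ((b.eq (mul_mem d h) (mul_mem h d)).1 (mem_cent1.1 c)), he⟩, d⟩
  · obtain ⟨e, he, d⟩ := mem_up.1 c
    exact ⟨mem_cent1.2 ((b.eq (mul_mem d h) (mul_mem h d)).2 (mem_cent1.1 he.1)), mem_up.2 ⟨e, he.2, d⟩⟩

theorem Bi.relIndex [Finite X] (h : A ≤ B) (hB : B ≤ H0) : (up T A).relIndex (up T B) = A.relIndex B := by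
  have e1 := card_mul_relIndex (up_mono (T := T) h)
  rw [b.card (h.trans hB), b.card hB, ← card_mul_relIndex h] at e1
  exact Nat.eq_of_mul_eq_mul_left Nat.card_pos e1

theorem Bi.syl [Finite X] [Finite G] (h : IsPiHallOf {2} A B) (hB : B ≤ H0) : IsPiHallOf {2} (up T A) (up T B) := by
  obtain ⟨n, e⟩ := (syl_isPGroup Nat.prime_two h).exists_card_eq
  exact syl_mk Nat.prime_two (up_mono h.1) (IsPGroup.of_card ((b.card (h.1.trans hB)).trans e))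
    (b.relIndex h.1 hB ▸ syl_not_dvd Nat.prime_two h)

theorem Bi.sq (h : (a, x) ∈ T) : x * x = 1 ↔ a * a = 1 := b.eq (mul_mem h h) (one_mem T)

theorem Bi.one (h : (a, x) ∈ T) : x = 1 ↔ a = 1 := b.eq h (one_mem T)

theorem Bi.cj {l c : X} {m y : G} (h : (a, x) ∈ T) (h1 : (l, m) ∈ T) (h2 : (c, y) ∈ T) :
    x = m * y * m⁻¹ ↔ a = l * c * l⁻¹ := b.eq h (mul_mem (mul_mem h1 h2) (inv_mem h1))

theorem Bi.ts [Finite X] [Finite G] {L0 S0 D0 : Subgroup X} {z0 u0 y0 τ0 : X} (s : TS L0 S0 D0 z0 u0 y0 τ0)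
    (hL : L0 ≤ H0) (hz : (z0, z) ∈ T) : ∃ S1 D u z1 τ, TS (up T L0) S1 D z u z1 τ := by
  have dL : D0 ≤ L0 := s.der ▸ (der1_le _).trans inf_le_right
  obtain ⟨u, hu⟩ := b.fst _ (hL s.uL)
  obtain ⟨y, hy⟩ := b.fst _ (hL (dL s.zD))
  obtain ⟨τ, hτ⟩ := b.fst _ (hL (dL s.τD))
  have l := (inf_le_right : C1[u0] ⊓ L0 ≤ L0).trans hL
  refine ⟨up T S0, up T D0, u, y, τ, fun x hx x2 x1 => ?_, (b.mem hu).2 s.uL, (b.sq hu).2 s.uu,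
    fun e => s.u1 ((b.one hu).1 e), fun m hm e => ?_, ?_, b.cent hu ▸ b.syl s.syl l, (b.mem hy).2 s.zS,
    (up_mono (le_inf s.Sz le_rfl)).trans ((b.cent hy).ge.trans inf_le_left), by rw [b.cent hu, b.comm l, s.der],
    (b.mem hy).2 s.zD, by rw [b.cent hu, b.relIndex (s.der ▸ der1_le _) l]; exact s.idx, fun x hx x2 x1 => ?_,
    (b.mem hτ).2 s.τD, (b.sq hτ).2 s.ττ, fun e => s.τ1 ((b.one hτ).1 e), fun m hm e => ?_⟩
  · obtain ⟨a, ha, c⟩ := mem_up.1 hx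
    obtain ⟨k, hk, e⟩ := s.cl a ha ((b.sq c).1 x2) fun o => x1 ((b.one c).2 o)
    obtain ⟨m, d⟩ := b.fst k (hL hk)
    exact ⟨m, (b.mem d).2 hk, e.imp (b.cj c d hz).2 (b.cj c d hu).2⟩
  · obtain ⟨a, ha, c⟩ := mem_up.1 hm
    exact s.nu a ha ((b.cj hu c hz).1 e)
  · obtain ⟨k, hk, e⟩ := s.cz
    obtain ⟨m, d⟩ := b.fst k (hL hk)
    exact ⟨m, (b.mem d).2 hk, (b.cj hy d hz).2 e⟩
  · obtain ⟨a, ha, c⟩ := mem_up.1 hx
    obtain ⟨k, hk, e⟩ := s.cl1 a ha ((b.sq c).1 x2) fun o => x1 ((b.one c).2 o)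
    obtain ⟨m, d⟩ := b.fst k (hL hk)
    exact ⟨m, (b.mem d).2 hk, e.imp (b.cj c d hz).2 (b.cj (mul_mem c hu) d hz).2⟩
  · obtain ⟨a, ha, c⟩ := mem_up.1 hm
    exact s.nτ a ha ((b.cj hτ c hy).1 e)

end Cfsg.Agent.CW
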