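import Cfsg.Agent.CoS.Lev
import Cfsg.Agent.XL.Fac2

/-! # `Co₁` as a group of bit matrices -/

set_option autoImplicit false

namespace Cfsg.Agent.CW

open Cfsg Cfsg.Spor Cfsg.Agent.GT Cfsg.Agent.TT Cfsg.Agent.TC Cfsg.Agent.XL Cfsg.Agent.M24 Cfsg.Agent.Leech
  Cfsg.Agent.CoS Subgroup MulAction

/-- the permutation representation -/
noncomputable def rho : Co1 →* Equiv.Perm Lt :=
  QuotientGroup.lift _ (MulAction.toPermHom Co0 Lt) fun g hg => Equiv.ext fun x =>
    (act_of_pj (h := 1) (((QuotientGroup.eq_one_iff g).2 hg).trans (map_one pj).symm) x).trans (one_smul _ x)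

noncomputable instance actCo1 : MulAction Co1 Lt := MulAction.compHom _ rho

theorem pj_smul (g : Co0) (x : Lt) : pj g • x = g • x := rfl

theorem co1_add (g : Co1) (x y : Lt) : g • (x + y) = g • x + g • y := by
  obtain ⟨g, rfl⟩ := pj_surj g
  exact smul_add g x y

theorem co1_zero (g : Co1) : g • (0 : Lt) = 0 := by
  obtain ⟨g, rfl⟩ := pj_surj g
  exact smul_zero g

/-- the matrix of an element -/
noncomputable def mt (g : Co1) : ℕ := mat (pj_surj g).choose

theorem mt_pj (g : Co0) : mt (pj g) = mat g := mat_eq.2 (pj_surj (pj g)).choose_spec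

theorem mt_inj : Function.Injective mt := fun g h e => by
  obtain ⟨g, rfl⟩ := pj_surj g
  obtain ⟨h, rfl⟩ := pj_surj h
  rwa [mt_pj, mt_pj, mat_eq] at e

theorem mt_mul (g h : Co1) : mt (g * h) = mulf (mt g) (mt h) := by
  obtain ⟨g, rfl⟩ := pj_surj g
  obtain ⟨h, rfl⟩ := pj_surj h
  rw [← map_mul, mt_pj, mt_pj, mt_pj, mat_mulf]

theorem mt_one : mt 1 = onem := by rw [← map_one pj, mt_pj, mat_one]

theorem mt_lt (g : Co1) : mt g < 2 ^ 576 := by
  rw [mt, mat]; exact pk_lt fun _ _ => cd_lt _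

theorem apm_mt (g : Co1) (x : Lt) : apm (mt g) (cdx x) = cdx (g • x) := by
  obtain ⟨g, rfl⟩ := pj_surj g
  rw [mt_pj, apm_mat]; rfl

/-- the element with a given matrix -/
noncomputable def el (M : ℕ) : Co1 := by
  classical exact if h : ∃ g, mt g = M then h.choose else 1

theorem mt_el {M : ℕ} (h : ∃ g, mt g = M) : mt (el M) = M := by rw [el, dif_pos h]; exact h.choose_spec

theorem el_mt (g : Co1) : el (mt g) = g := mt_inj (mt_el ⟨g, rfl⟩)

theorem valid_mt {l : List ℕ} (h : Valid mat l) : Valid mt l := fun s hs =>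
  let ⟨g, e⟩ := h s hs; ⟨pj g, (mt_pj g).trans e⟩

/-- the letters of an alphabet -/
noncomputable def al (l : List ℕ) (i : ℕ) : Co1 := el (lget l onem i)

/-- the action on vectors -/
noncomputable def fv (l : List ℕ) (i : ℕ) : ℕ → ℕ := apm (lget l onem i)

/-- the regular action -/
noncomputable def fm (l : List ℕ) (i : ℕ) : ℕ → ℕ := mulf (lget l onem i)

variable {l : List ℕ}

theorem mt_al (h : Valid mt l) (i : ℕ) : mt (al l i) = lget l onem i :=
  mt_el ((lget_mem l onem i).elim (h _) fun e => ⟨1, mt_one.trans e.symm⟩)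

theorem ma (h : Valid mt l) (k : ℕ) : Ma cdx (al l) (fv l) k (2 ^ 24) :=
  ⟨cdx_inj, fun i _ x => by rw [fv, ← mt_al h, apm_mt], cdx_lt, fun _ => exists_cdx⟩

theorem md (h : Valid mt l) (k : ℕ) : Md mt (al l) (fm l) k [onem] :=
  ⟨mt_inj, fun i _ x => by rw [fm, ← mt_al h, smul_eq_mul, mt_mul],
    fun g hg => by simpa using hg 1 (by simp [mt_one])⟩

theorem num : Md.Num mt (2 ^ 576) [onem] := ⟨mt_lt, fun q hq => ⟨1, by simpa [mt_one, eq_comm] using hq⟩⟩

/-- the matrix of a word -/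
noncomputable def wm (l w : List ℕ) : ℕ := apl (fm l) w onem

theorem mt_evl (h : Valid mt l) (w : List ℕ) : mt (evl (al l) w) = wm l w := by
  have := apl_evl (idx := mt) (f := fm l) (v := al l) (w := w) (fun i _ x => (md h (i + 1)).act i i.lt_succ_self x) 1
  rwa [smul_eq_mul, mul_one, mt_one] at this

theorem cmm_iff {g h : Co1} : cmm (mt g) (mt h) = true ↔ Commute g h := by
  rw [cmm, Nat.beq_eq, ← mt_mul, ← mt_mul, mt_inj.eq_iff]; rfl

/-- conjugation by a letter with inverse letter -/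
noncomputable def cn (l : List ℕ) (s x : ℕ) : ℕ :=
  force (mulf (lget l onem (Nat.land s (nat_lit 31))) x) fun y => mulf y (lget l onem (Nat.shiftRight s (nat_lit 5)))

/-- pairs of inverse letters -/
noncomputable def prOk (l ls : List ℕ) (s : ℕ) : Bool := band (lm ls (Nat.land s (nat_lit 31)))
  (Nat.beq (mulf (lget l onem (Nat.land s (nat_lit 31))) (lget l onem (Nat.shiftRight s (nat_lit 5)))) onem)

theorem cn_conn (h : Valid mt l) {ls ps : List ℕ} {t : T} {x : Co1} (hp : lall ps (prOk l ls) = true)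
    (hc : connChk (cn l) ps (mt x) t = true) : ∀ k ∈ t.keys, ∃ g ∈ Mb (al l) ls, mt (g * x * g⁻¹) = k :=
  conn_gen hc ⟨1, one_mem _, by simp⟩ fun s hs b ⟨g, hg, e⟩ => by
    have := (lall_iff _ _).1 hp s hs
    rw [prOk, band_eq, Bool.and_eq_true, lm_iff, Nat.beq_eq, ← mt_al h, ← mt_al h, ← mt_mul, ← mt_one] at this
    refine ⟨_, mul_mem (Mb.of this.1) hg, ?_⟩
    rw [cn, force_eq, ← e, ← mt_al h, ← mt_al h, ← mt_mul, ← mt_mul, eq_inv_of_mul_eq_one_right (mt_inj this.2)]
    exact congrArg mt (by group)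

instance finite_Co1 : Finite Co1 := Finite.of_injective (fun g => (⟨mt g, mt_lt g⟩ : Fin (2 ^ 576))) fun _ _ e =>
  mt_inj (congrArg Fin.val e)

theorem card_of_keys {t : T} {H : Subgroup Co1} {x : Co1} (hs : t.srt 0 (2 ^ 576) = true)
    (h : ∀ k ∈ t.keys, ∃ g ∈ H, mt (g * x * g⁻¹) = k) :
    Nat.card (C1[x] ⊓ H : Subgroup Co1) * t.size ≤ Nat.card H := by
  rw [← card_inf_mul_relIndex C1[x] H, ← ncard_cj, T.size_eq, ← List.toFinset_card_of_nodup (T.srt_nodup hs),
    ← Set.ncard_coe_finset, ← Set.ncard_image_of_injective _ mt_inj]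
  refine Nat.mul_le_mul_left _ (Set.ncard_le_ncard (fun k hk => ?_) ((Set.toFinite _).image _))
  obtain ⟨g, hg, e⟩ := h k (by simpa using hk)
  exact ⟨_, ⟨g, hg, rfl⟩, e⟩

theorem card_conj_le (h : Valid mt l) {ls ps : List ℕ} {t : T} {H : Subgroup Co1} {x : Co1} {X n N : ℕ}
    (hx : mt x = X) (hH : Mb (al l) ls ≤ H) (hN : Nat.card H ≤ N * n)
    (hc : band (band (lall ps (prOk l ls)) (connChk (cn l) ps X t))
      (band (t.srt 0 (2 ^ 576)) (band (Nat.beq t.size n) (Nat.ble 1 n))) = true) :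
    Nat.card (C1[x] ⊓ H : Subgroup Co1) ≤ N := by
  simp only [band_eq, Bool.and_eq_true, Nat.beq_eq, Nat.ble_eq] at hc
  have := card_of_keys (H := H) hc.2.1 fun k hk =>
    let ⟨g, a, b⟩ := cn_conn h hc.1.1 (hx.symm ▸ hc.1.2) k hk; ⟨g, hH a, b⟩
  rw [hc.2.2.1] at this
  exact Nat.le_of_mul_le_mul_right (this.trans hN) hc.2.2.2

/-! ### The basic elements -/

/-- the matrices `z, s, a, b, g, x₁, …, x₇, v, w` -/
def cB : List ℕ := [nat_lit 0xfdb28e40000f20002810002408000a04002d020a900100020080060046c000202f00100f000801000401000201000101000081000041000020000011000008000004000002000001,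
  nat_lit 0x852abf4002412007401007800803c004002d0202810108130085c00046c000283e001481000800000401000201000101000081000041000020000010000008000004000002000001,
  nat_lit 0xa58eee00100f1117bf5016bb50368f508fea42100f3017bf5403eb40500f18006540000f00040100080100049e0007b4000a4e000011000020000041000008000004000002000001,
  nat_lit 0x90dcd2108852520aad4085906ff85154823d700f7d010010008dd240148050a22d10ccd2000012000410000210000110000090000050000a5f0000100007a5000dd6000810000001,
  nat_lit 0xa1cda2041103121c4754165e2feebb548e47411e5c3017fe54024340124f1c01894443430000430008400004df0007f5000a0f0000500000c00000410001400001ac000440000001,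
  nat_lit 0x77991f97a93359d9c9a6ddd9f796c67cd7c97d57c903a9f80429f8062bd87f7df1e6a86b22822a070a500221820223020220020701427db46b2285427db281000ab9000aba000abf,
  nat_lit 0xb97713858805597dfbe4f7d2f7a67a7fd7c27d77fa0789ea2629ba79ffda7d75fbeca3f2228239070a130228bf0223810221000705407db461228d407db2a2000003000ab9000abe,
  nat_lit 0xfc636e3d776a9ed39f175687990f04022f57aebf17d2268239b7ca040db6d5266b69f2624ac5ca066cd8034858034a190661e603454a7db46d325442000ab97db8387db81b000c53,
  nat_lit 0x210a038135dfc95579ade988891c7dfa16fff6ea832bdc0e49dd070915fed9d926091f4acf8d066c50034743034a500665ef0344427db4663253ff000ab07db4457db833000c52,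
  nat_lit 0xa039aea0589a841cbd9ce1e55951d06640cb6b1e8cb41e96d95890665e8cd2e36db121e6d65a779fa3079f93179fadc7cde707cd123000ab915fafe7dbed47dbed27dbed80006ec,
  nat_lit 0x9f63b20a047fc5128510f6dd4ae645d172d17d9bb193878cba84e5ba86c422438512246500cdc21454ca00c20400c805206092494e420006e2206f7a7db4430000217db83e0006c7,
  nat_lit 0xbfeefe8594c1b66b779ecb9430fbaf7ebbf99a4397e0fb4678ef3f7af91b9b68ace52e696d6e6779f44579f14579f7457cdd177cd469000c7415fcc57db2a57db2ae7db44f0006ed,
  nat_lit 0x3fd73185df5b815353b2dc8ef3568e0185ac835b63b55c6204087a045cec480a70040862844f8f010c100179d01403ed45047c000010450e13b61022140450018050010412052c42,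
  nat_lit 0xad2df5bc22b9f0bd44f737fda3288f18800a9a3c22b23c22008006280c5267742b78842cc8e002488fdf50dcb07804221814247894626080a6cba812009108641400301fff789422]

theorem vB : Valid mt cB := valid_mt (valid_of_words (ws := [[nat_lit 0xbdab49ca307b9ac5a928398a4188207dbfd0],
  [nat_lit 0xbdab49ca307b9ac5a928398a4188200527c0],
  [nat_lit 0xb9e086be3593a6952d94b10a618820258c50],
  [nat_lit 0x99623bcab0131ae0a92839ac0a3d64d85028],
  [nat_lit 0x69623bbe151266e0ad94b10e044946a5eff8],
  [nat_lit 0xa11ae404d5bc9f1014623a54b85993bbc9fc, nat_lit 0, nat_lit 0x782c2b96436a8c1846753b924a310b8aa1ee],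
  [nat_lit 0x404cb516802304373eb784ad19b4e9561230, nat_lit 0, nat_lit 0x60d5171ed5a20454cee101a4f5b604b7df54],
  [nat_lit 0xa58051a4f3bb5e8808267464b5548c9333ca, nat_lit 0, nat_lit 0x5343780ce824dc2b456c2c9e0351355af21c],
  [nat_lit 0x899546d8a925e0b9d58f3c8480806ee4351e, nat_lit 0, nat_lit 0x2adea656ed404c994c963c23410dc0851614],
  [nat_lit 0x72e4445dacac1e504ed1524f430c220c6dea, nat_lit 0, nat_lit 0x5a9f0a1d052022db4cd51ba49b882c3cc1ce],
  [nat_lit 0x52e6e31ee800de4a944db40298d192790e5a, nat_lit 0, nat_lit 0x2cd603846622a42b5e0d655e88a5d4ab438e],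
  [nat_lit 0x51ac59add0888f47dc0c2546d0c909e13be0, nat_lit 0, nat_lit 0x54eb235d3060da858041b11e78b8b417176c],
  [nat_lit 0x88df27112b41c20bc0d3609546daa536f50c, nat_lit 0, nat_lit 0x5242228c12b11946ae707dcee456267341da, nat_lit 0, nat_lit 0xb3dc3500f32dc944b028ab4d158a5085e090],
  [nat_lit 0x81ace21562bbe433a5a8ab2809a831213dda, nat_lit 0, nat_lit 0x488aa9ac6139aa07ba848351164af6ea6fec, nat_lit 0, nat_lit 0xa2241bd6161292b011f1198ac74da7135062]]) (by decide +kernel))

/-- the central involution -/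
noncomputable def z0 : Co1 := pj zz
/-- the extraspecial group -/
noncomputable def Q1 : Subgroup Co1 := Q0.map pj
/-- the second involution -/
noncomputable def s0 : Co1 := al cB 1
/-- an involution in the extraspecial group -/
noncomputable def aa : Co1 := al cB 2
/-- an involution in the second extraspecial group -/
noncomputable def bb : Co1 := al cB 3
/-- an element of order three -/
noncomputable def g0 : Co1 := al cB 4
/-- the three-cycles -/
noncomputable def xx (i : ℕ) : Co1 := al cB (i + 4)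

theorem mt_z0 : mt z0 = mZ := (mt_pj _).trans mat_zz

theorem z0_eq : z0 = al cB 0 := mt_inj (by rw [mt_z0, mt_al vB]; decide +kernel)

theorem s0_eq : s0 = pj (sgn (unmask 337856)) := mt_inj (by
  rw [s0, mt_al vB, mt_pj, mat_sgn ((isCw_unmask (by norm_num)).2 (by decide +kernel))]; decide +kernel)

theorem mem_Q1 {g : Co1} : g ∈ Q1 ↔ tQ.has (mt g) = true :=
  ⟨by rintro ⟨k, hk, rfl⟩; rw [mt_pj]; exact (T.has_iff tab.srt).2 (tab.mem hk), fun h =>
    let ⟨k, hk, e⟩ := tab.has h; ⟨k, hk, mt_inj ((mt_pj k).trans e)⟩⟩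

theorem Q1_all {f : ℕ → Bool} (h : (tQ.all fun k _ _ => f k) = true) {g : Co1} (hg : g ∈ Q1) : f (mt g) = true := by
  obtain ⟨k, hk, rfl⟩ := hg
  exact mt_pj k ▸ tab.all h hk

theorem Q1_le {H : Subgroup Co1} (h : ∀ k ∈ Q1, mt k ∈ lQ → k ∈ H) : Q1 ≤ H :=
  map_le_iff_le_comap.2 (tab.le fun k hk e => h _ ⟨k, hk, rfl⟩ (mt_pj k ▸ e))

theorem g0_eq : g0 = aa * bb := mt_inj (by rw [mt_mul, g0, aa, bb]; simp only [mt_al vB]; decide +kernel)

theorem gz : g0 * z0 * g0⁻¹ = s0 := mul_inv_eq_iff_eq_mul.2 (mt_inj (by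
  rw [z0_eq, g0, s0]; simp only [mt_mul, mt_al vB]; decide +kernel))

theorem ne_of_mt {g h : Co1} (e : Nat.beq (mt g) (mt h) = false) : g ≠ h := fun a => by
  rw [a, Nat.beq_refl] at e; exact nomatch e

theorem mem_C0 {g : Co0} : pj g ∈ C1[z0] ↔ g ∈ C1[zz] := by
  refine ⟨fun h => mem_CZ_of_mat ?_, fun h => mem_cent1.2 (by rw [z0, ← map_mul, mem_cent1.1 h, map_mul])⟩
  rw [← mt_pj, ← mt_z0, ← mt_mul, ← mt_mul, mem_cent1.1 h]

theorem lt0 : LT Q1 z0 g0 4 174182400 := by
  obtain ⟨g, e⟩ := pj_surj g0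
  obtain ⟨k, hk, e'⟩ : s0 ∈ Q1 := mem_Q1.2 (by rw [s0, mt_al vB]; decide +kernel)
  have hz : kr CoS.pt ≤ C1[zz] := by rw [kr_pt]; exact center_le_centralizer _
  have h1 : s0 ≠ z0 := ne_of_mt (by rw [z0_eq, s0]; simp only [mt_al vB]; decide +kernel)
  have := lt_quot (w := 4) (N := 174182400) (g := g) (k := k) CoS.pt pt_surj es_Q0 le_top
    (by rw [kr_pt]; exact inf_center ng_Q0) (fun m hm => by
      rw [kr_pt, Leech.mem_center_iff] at hm
      rcases hm with a | a <;> rw [mul_inv_eq_iff_eq_mul] at a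
      · rw [one_mul, mul_inv_eq_iff_eq_mul] at a; exact mem_cent1.2 a
      · exact absurd a (not_conj m)) hz (inf_le_right.trans C_le_N)
    (fun d hd => by
      rw [kr_pt]
      exact mem_sup_center.2 (mem_of_triv fun y hy => Or.inl (by rw [← hd.2 y hy, mul_inv_cancel_right])))
    card_Q0 (by rw [top_inf_eq, card_CZ, kr_pt, card_center, card_Q0]) (mem_top g) hk
    (fun a => h1 (by rw [← e', a, z0]))
    (by rw [kr_pt, Leech.mem_center_iff, ← pj_eq_one, map_mul, map_mul, map_mul, map_inv, map_inv, e, e',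
      mul_inv_eq_one]; exact gz)
  have h2 : im CoS.pt Q0 = Q1 := le_antisymm (by rintro _ ⟨x, hx, rfl⟩; exact ⟨x, hx, rfl⟩)
      (by rintro _ ⟨x, hx, rfl⟩; exact ⟨⟨x, trivial⟩, hx, rfl⟩)
  rw [h2] at this
  rw [← e]
  exact this

theorem card_Q1 : Nat.card Q1 = 512 := lt0.cQ'

theorem card_C0 : Nat.card C1[z0] = 89181388800 := by rw [lt0.cC, card_Q1]

theorem v4 : V4 z0 s0 aa bb := by
  refine ⟨lt0.zz, gz ▸ conj_mul_self _ lt0.zz, lt0.zc _ (gz ▸ lt0.sQ), lt0.ne,
    fun e => lt0.ne (conj_eq_one_iff.1 (gz.trans e)), gz ▸ lt0.sne, ?_, ?_, ?_, ?_⟩ <;>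
  refine mul_inv_eq_iff_eq_mul.2 (mt_inj ?_) <;> simp only [z0_eq, s0, aa, bb, mt_mul, mt_al vB] <;>
  decide +kernel

end Cfsg.Agent.CW
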