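import Cfsg.Agent.CW.T0
import Cfsg.Agent.J8.Rel

/-! # Groups of type `Co₁`: the classes of involutions -/

set_option autoImplicit false
set_option maxRecDepth 100000

namespace Cfsg.Agent.CW

open Cfsg Cfsg.Spor Cfsg.Agent.GT Cfsg.Agent.TT Cfsg.Agent.TC Cfsg.Agent.XL Cfsg.Agent.M24 Cfsg.Agent.Leech
  Cfsg.Agent.CoS Subgroup MulAction
open scoped Pointwise symmDiff

/-- data -/
def w_zt : List ℕ × ℕ × List ℕ × ℕ := ([nat_lit 0x15a0c2180940e8b91e757aaed895c1000000, nat_lit 0,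
  nat_lit 0x8be8921c2b8166d520d2656f610c0ec75001, nat_lit 0, nat_lit 0x1907ac1d658953911347b6ec08e25558ec3],
  nat_lit 0xe17c817f63d37912a1bf086539fac47abd70b3e341b3ec9d96cbfd79f083cc76806bfc830a9802062326030b18062167062a5803048a7db81f7207ba7db81b0000287dbef9000a92,
  [nat_lit 0x15a136c82faba8732d884aae489460c75001, nat_lit 0, nat_lit 0x1a48aaa369952c3be04a36eb708239ea7b7],
  nat_lit 0)
/-- data -/
def w_tu : List ℕ × ℕ × List ℕ × ℕ := ([nat_lit 0x1d4c892809385b3611f0a5aeb289d1000000, nat_lit 0,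
  nat_lit 0x155335da2f8150c552463906d05c2e2a060b, nat_lit 0, nat_lit 0x8c893b1c0daba0a4be8662c282dc432cef44],
  nat_lit 0xd2e821d74e5bb8fdad47cf8c07b79a012c7f451712461213dd02c30707c3421212f7eba462d1c2026c7c074b3d0265020749bd0264427db44b62d36d0000257db83c000abd000c7f,
  [nat_lit 0, nat_lit 0x199e8626f450575b12723c22d1140ec10929, nat_lit 0], nat_lit 438188)
/-- data -/
def w_ztu : List ℕ × ℕ × List ℕ × ℕ := ([nat_lit 0x199e8626f450575b12723c22d1140ec10929, nat_lit 0,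
  nat_lit 0x2920b3bc4da44c99214cb5473005d700149f],
  nat_lit 0x9ef90a5143b93326990f64d70d262c06678d1f0d831927d114e2c9070e151a65710c56d30007b4000040000f1200093f0001ed000400000ab80003da0000090006e2000003000001,
  [nat_lit 0xd564a2066989ac7c0ea924b6b81d1c75001, nat_lit 0], nat_lit 0x6a18db)
/-- data -/
def dsA : List ℕ := [nat_lit 0, nat_lit 421910, nat_lit 0x21b01c, nat_lit 0x27c00a, nat_lit 0x49f002,
  nat_lit 0x4f8014, nat_lit 0x68401e, nat_lit 0x6e3008, nat_lit 0x9b3010, nat_lit 0x9d4006, nat_lit 0xba800c,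
  nat_lit 0xbcf01a, nat_lit 0xd2c012, nat_lit 0xd4b004, nat_lit 0xf3700e, nat_lit 0xf50018]
/-- data -/
def rsA : List (ℕ × ℕ × List ℕ) := [(nat_lit 0, nat_lit 0x4cac80, [nat_lit 0x192afa3630995165a8f23240c15c2e62d024,
  nat_lit 0]), (nat_lit 0xc75001, nat_lit 0x5b4d68, [nat_lit 0x152b23a1c6602646da0b4be2ab8ca1a44413, nat_lit 0]),
  (nat_lit 0x56404c, nat_lit 0x813ec7, [nat_lit 0x8b6086500925eb691de654c2b289c3c10929, nat_lit 0]),
  (nat_lit 0x91104d, nat_lit 0x326db8, [nat_lit 0x8c14892c0c48e8d392af9d846b95c1400a4f, nat_lit 0]),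
  (nat_lit 0x839086, nat_lit 0xb02d97, [nat_lit 0x199e8626f450575b12723c22d1140ec10929, nat_lit 0]),
  (nat_lit 0x44c087, nat_lit 0x3bf828, [nat_lit 0xcde93a06dac5743320495aea2880e400a4f, nat_lit 0]),
  (nat_lit 0xd5d0ca, nat_lit 0xe4ac47, [nat_lit 0x192afa3630995165a8f23240c15c2e000000, nat_lit 0]),
  (nat_lit 0x1280cb, nat_lit 0xfccb8, [nat_lit 0x21936bdd24dc943d5465c0562c423400a4f, nat_lit 0])]
/-- data -/
def dsB : List ℕ := [nat_lit 0, nat_lit 381252, nat_lit 705094, nat_lit 987906, nat_lit 0x13e005, nat_lit 0x163141,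
  nat_lit 0x192243, nat_lit 0x1cf307, nat_lit 0x215207, nat_lit 0x248343, nat_lit 0x2b9041, nat_lit 0x2e4105,
  nat_lit 0x32b202, nat_lit 0x376346, nat_lit 0x387044, nat_lit 0x3da100, nat_lit 0x433244, nat_lit 0x46e300,
  nat_lit 0x49f002, nat_lit 0x4c2146, nat_lit 0x50d241, nat_lit 0x550305, nat_lit 0x5a1007, nat_lit 0x5fc143,
  nat_lit 0x626043, nat_lit 0x67b107, nat_lit 0x68a205, nat_lit 0x6d7341, nat_lit 0x718046, nat_lit 0x745102,
  nat_lit 0x7b4200, nat_lit 0x7e9344, nat_lit 0x81b301, nat_lit 0x846245, nat_lit 0x8b7147, nat_lit 0x8ea003,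
  nat_lit 0x925304, nat_lit 0x978240, nat_lit 0x989142, nat_lit 0x9d4006, nat_lit 0xa0e106, nat_lit 0xa53042,
  nat_lit 0xaa2340, nat_lit 0xaff204, nat_lit 0xb30103, nat_lit 0xb6d047, nat_lit 0xb9c345, nat_lit 0xbc1201,
  nat_lit 0xc28145, nat_lit 0xc75001, nat_lit 0xc84303, nat_lit 0xcd9247, nat_lit 0xd16140, nat_lit 0xd4b004,
  nat_lit 0xdba306, nat_lit 0xde7242, nat_lit 0xe3d342, nat_lit 0xe60206, nat_lit 0xe91104, nat_lit 0xecc040,
  nat_lit 0xf03347, nat_lit 0xf5e203, nat_lit 0xfaf101, nat_lit 0xff2045]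
/-- data -/
def rsB : List (ℕ × ℕ × List ℕ) := [(nat_lit 0, nat_lit 0x9b4b52, [nat_lit 0xcdaab30667bab25d128240a788ae0400a4f,
  nat_lit 0]), (nat_lit 0x376346, nat_lit 0, [nat_lit 0xbda72a1dc480166521a9abcac08a23000000, nat_lit 0,
  nat_lit 0x89e123581453988492b35beed08865b2ec0b])]
/-- data -/
def w_t1 : List ℕ := [nat_lit 0x2d92b6a833ac59233c9041c5405c6e400a4f, nat_lit 0,
  nat_lit 0xbd9ed24a2c48270520e6aac341146e773b75]
/-- data -/
def w_uu : List ℕ := [nat_lit 0x11ed37d0355c58a69904824122dc6e4e4422, nat_lit 0,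
  nat_lit 0xba5f63280c439ab81e95910b388823a01782]
/-- data -/
def w_oo : List ℕ := [nat_lit 0x159757982a23a4ca21303b4b3880774f5fae]
/-- data -/
def w_t1u : List ℕ := [nat_lit 0x2d92b6a833ac59233c9041c5405c6e400a4f, nat_lit 0,
  nat_lit 0xbd9ed24a2c48270520e6aac341146e773b75]

variable {G : Type*} [Group G] {K M : Subgroup (Co1 × G)} {z x y : G} {a b k : Co1} {A B T m p : ℕ}
  {w w' : List ℕ} {c d : Finset GolayPt} {σ ρ : M24}

/-- the images in the group are conjugate -/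
def Eqv (K : Subgroup (Co1 × G)) (a b : Co1) : Prop := ∀ y, (a, y) ∈ K → ∃ y', (b, y') ∈ K ∧ IsConj y y'

theorem Eqv.refl : Eqv K a a := fun y h => ⟨y, h, IsConj.refl y⟩

theorem Eqv.trans (h1 : Eqv K a b) (h2 : Eqv K b k) : Eqv K a k := fun y h =>
  let ⟨u, c, d⟩ := h1 y h; let ⟨v, e, f⟩ := h2 u c; ⟨v, e, d.trans f⟩

theorem p2 {X : Type*} [Group X] [Finite X] {u : X} (e : u * u = 1) : IsPGroup 2 (zpowers u) :=
  (isPGroup_zpowers_iff Nat.prime_two).2 ((piNat_single_self Nat.prime_two).of_dvd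
    (orderOf_dvd_of_pow_eq_one ((sq _).trans e)))

/-- test for a conjugation in the centralizer -/
noncomputable def kst (A B : ℕ) (w : List ℕ) : Bool :=
  band (lall w ltrOk) (force (wmat w) fun W => band (cmm W mZ) (Nat.beq (mulf A W) (mulf W B)))

theorem kst_ok (hA : mt a = A) (hB : B < 2 ^ 576) (hc : kst A B w = true) : ∃ k ∈ C1[z0], mt (k * a * k⁻¹) = B := by
  rw [kst, force_eq, band_eq, band_eq, Bool.and_eq_true, Bool.and_eq_true, Nat.beq_eq] at hc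
  obtain ⟨g, e⟩ := exists_wmat (w := w) (s := wmat w) (by rw [hc.1, Nat.beq_refl]; rfl)
  rw [← e, ← mt_pj, ← mt_z0, cmm_iff, ← hA] at hc
  refine ⟨(pj g)⁻¹, inv_mem (mem_cent1.2 hc.2.1), ?_⟩
  rw [inv_inv, mul_assoc, mt_mul, mt_mul, hc.2.2, ← mulf_assoc, ← mt_mul, inv_mul_cancel, mt_one, one_mulf hB]

theorem sg_mul (hc : IsCw c) (hd : IsCw d) : sg (c ∆ d) = sg c * sg d := by
  rw [sg, sgn_symmDiff hc hd, map_mul]; rfl

theorem cw_smul (σ : M24) (hc : IsCw c) : IsCw (σ • c) := hc.smul σ.2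

theorem mask_smul (hp : mcode σ = p) (c : Finset GolayPt) : mask (σ • c) = act p (mask c) := by
  rw [M24_smul_def, ← act_mask, ← hp]; rfl

theorem mt_sg (hm : IsCw (unmask m)) : mt (sg (unmask m)) = matS m := by rw [sg, mt_pj, mat_sgn hm]

theorem mt_sp (hm : IsCw (unmask m)) (hp : mcode σ = p) : mt (sg (unmask m) * pm σ) = matSP m p := by
  rw [sg, pm, MonoidHom.comp_apply, ← map_mul, mt_pj, mat_sgn_prm hm, hp]

/-- the matrix of `t0` -/
noncomputable def mT : ℕ := mulf (lget cB onem 5) (lget cB onem 6)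
/-- the matrix of `uu` -/
noncomputable def mU : ℕ := mulf (mulf (mulf (mulf (mulf (lget cB onem 8) (lget cB onem 10)) (lget cB onem 9))
  (lget cB onem 11)) (lget cB onem 8)) (lget cB onem 10)

theorem mt_t0 : mt t0 = mT := by simp only [t0, xx, mt_mul, mt_al vB, mT]

theorem mt_uu : mt uu = mU := by simp only [uu, xx, mt_mul, mt_al vB, mU]

theorem g0_inv : g0⁻¹ = g0 * g0 := inv_eq_of_mul_eq_one_right (mt_inj (by
  simp only [g0, mt_mul, mt_al vB, mt_one]; decide +kernel))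

theorem A9_le : A9 ≤ C1[z0] := cen vB mt_z0 (by decide +kernel)

theorem xx_A9 {i : ℕ} (h : i + 4 ∈ [5, 6, 7, 8, 9, 10, 11]) : xx i ∈ A9 := Mb.of h

/-- one of the three classes -/
def Cl3 (K : Subgroup (Co1 × G)) (a : Co1) : Prop := Eqv K a z0 ∨ Eqv K a (sg D0) ∨ Eqv K a t0

theorem Eqv.cl (h1 : Eqv K a b) (h2 : Cl3 K b) : Cl3 K a := h2.imp h1.trans (Or.imp h1.trans h1.trans)

/-- test for a codeword of given weight -/
noncomputable def cwk (m n : ℕ) : Bool := band (band (Nat.blt m (nat_lit 0x1000000)) (Nat.beq (syn m) 0)) (Nat.beq (pc m) n)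

theorem cwk_ok {n : ℕ} (h : cwk m n = true) : IsCw (unmask m) ∧ (unmask m).card = n := by
  simp only [cwk, band_eq, Bool.and_eq_true, Nat.blt_eq, Nat.beq_eq] at h
  exact ⟨(isCw_unmask h.1.1).2 h.1.2, (card_unmask h.1.1).trans h.2⟩

/-- test for the class of a monomial involution -/
noncomputable def tgc (p : ℕ) (r : ℕ × ℕ × List ℕ) : Bool := band (cwk r.1 (pc r.1)) (force (matSP r.1 p) fun A =>
  bor (band (bor (cwk r.2.1 8) (cwk r.2.1 12)) (kst A (matS r.2.1) r.2.2)) (kst A mT r.2.2))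

/-- test for a walk with one step in the normalizer of the four-group -/
noncomputable def wk1 (A T : ℕ) (r : List ℕ × ℕ × List ℕ × ℕ) : Bool :=
  band (band (Nat.blt r.2.1 (2 ^ 576)) (kst A r.2.1 r.1)) (band (cmm r.2.1 (lget cB onem 1))
    (force (mulf (mulf (mulf (lget cB onem 4) (lget cB onem 4)) r.2.1) (lget cB onem 4)) fun B => kst B T r.2.2.1))

/-- test for the reduction of a codeword -/
noncomputable def red (p : ℕ) (ds rs : List ℕ) (m : ℕ) : Bool := force (Nat.xor m (act p m)) fun e =>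
  bor (!(bor (Nat.beq e 0) (Nat.beq e (nat_lit 0xffffff)))) (lany ds fun d =>
    force (Nat.xor m (Nat.xor d (act p d))) fun u => bor (lm rs u) (lm rs (Nat.xor u (nat_lit 0xffffff))))

variable (h : RH z0 s0 z K M)
include h

theorem eqv_k (hk : k ∈ C1[z0]) : Eqv K a (k * a * k⁻¹) := fun _ hy =>
  let ⟨d, e⟩ := h.kz.fst k hk; ⟨_, mul_mem (mul_mem e hy) (inv_mem e), isConj_iff.2 ⟨d, rfl⟩⟩

theorem eqv_kst (hA : mt a = A) (hB : mt b = B) (hc : kst A B w = true) : Eqv K a b :=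
  let ⟨_, c, e⟩ := kst_ok hA (hB ▸ mt_lt b) hc; mt_inj (e.trans hB.symm) ▸ eqv_k h c

theorem Eqv.symm (e : Eqv K a b) (ha : a ∈ C1[z0]) : Eqv K b a := fun _ hy =>
  let ⟨u, c⟩ := h.kz.fst a ha; let ⟨_, d, o⟩ := e u c
  ⟨u, c, (Prod.mk.inj (h.kz.gr.ext d hy rfl)).2 ▸ o.symm⟩

theorem eqv_g (ha : Commute a s0) : Eqv K a (g0⁻¹ * a * g0) := fun y hy => by
  obtain ⟨γ, b⟩ := h.nf g0 (g0_eq ▸ mul_mem v4.na v4.nb)
  refine ⟨γ⁻¹ * y * γ, h.cp _ (mul_mem (mul_mem (inv_mem b) (h.mem hy (cent_le_norm_VV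
    ⟨h.kz.c1 hy, mem_cent1.2 ha⟩))) b) (mem_cent1.2 ?_), isConj_iff.2 ⟨γ⁻¹, by rw [inv_inv]⟩⟩
  have := ha.eq
  rw [← gz] at this
  change g0⁻¹ * a * g0 * z0 = z0 * (g0⁻¹ * a * g0)
  calc _ = g0⁻¹ * (a * (g0 * z0 * g0⁻¹)) * g0 := by group
    _ = _ := by rw [this]; group

theorem eqv_wk1 {r : List ℕ × ℕ × List ℕ × ℕ} (hA : mt a = A) (hB : mt b = T) (hc : wk1 A T r = true) : Eqv K a b := by
  simp only [wk1, force_eq, band_eq, Bool.and_eq_true, Nat.blt_eq] at hc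
  obtain ⟨k, c, e⟩ := kst_ok hA hc.1.1 hc.1.2
  refine (eqv_k h c).trans ((eqv_g h (cmm_iff.1 (by rw [e, mt_s0]; exact hc.2.1))).trans (eqv_kst h ?_ hB hc.2.2))
  rw [g0_inv, mt_mul, mt_mul, mt_mul, e, g0, mt_al vB]

variable [Finite G]

theorem eqv_pm (hc : IsCw c) (σ : M24) : Eqv K (sg c) (sg (σ • c)) := fun _ hy =>
  let ⟨x, b⟩ := G_all h σ
  ⟨_, pm_conj σ hc ▸ G_conj b (sg_mem hc) hy, isConj_iff.2 ⟨x, rfl⟩⟩

theorem eqv_dod (hc : IsCw c) (e : c.card = 12) : Eqv K (sg c) (sg D0) := by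
  obtain ⟨σ, o⟩ := exists_smul_D0 ⟨hc, e⟩
  simpa [← o] using eqv_pm h hc σ⁻¹

theorem eqv_oct (hc : IsCw c) (e : c.card = 8) : Eqv K (sg c) z0 := by
  obtain ⟨σ, o⟩ := exists_smul_O0 ⟨hc, e⟩
  simpa [← o, z0_sg] using eqv_pm h hc σ⁻¹

theorem cl_tgc (hp : mcode ρ = p) {r : ℕ × ℕ × List ℕ} (hc : tgc p r = true) : Cl3 K (sg (unmask r.1) * pm ρ) := by
  simp only [tgc, force_eq, band_eq, bor_eq, Bool.and_eq_true, Bool.or_eq_true] at hc
  have e := mt_sp (cwk_ok hc.1).1 hp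
  rcases hc.2 with ⟨o | o, u⟩ | u
  · exact Or.inl ((eqv_kst h e (mt_sg (cwk_ok o).1) u).trans (eqv_oct h (cwk_ok o).1 (cwk_ok o).2))
  · exact Or.inr (Or.inl ((eqv_kst h e (mt_sg (cwk_ok o).1) u).trans (eqv_dod h (cwk_ok o).1 (cwk_ok o).2)))
  · exact Or.inr (Or.inr (eqv_kst h e mt_t0 u))

theorem cl_red (hp : mcode ρ = p) (h2 : ρ * ρ = 1) {ds : List ℕ} {rs : List (ℕ × ℕ × List ℕ)}
    (h1 : band (band (lall ds fun d => cwk d (pc d)) (rs.all (tgc p)))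
      (ball (fun x => force (cw x) (red p ds (rs.map Prod.fst))) 12 0) = true) (hc : IsCw c)
    (e : sg c * pm ρ * (sg c * pm ρ) = 1) : Cl3 K (sg c * pm ρ) := by
  simp only [band_eq, Bool.and_eq_true, lall_iff, List.all_eq_true] at h1
  have k : ∀ u, IsCw u → lm (rs.map Prod.fst) (mask u) = true → Cl3 K (sg u * pm ρ) := fun u _ o => by
    obtain ⟨r, hr, o⟩ := List.mem_map.1 (lm_iff.1 o)
    rw [eq_unmask o.symm]
    exact cl_tgc h hp (h1.1.2 r hr)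
  have e1 : sg (c ∆ (ρ • c)) = sg ∅ := by
    rw [sg_mul hc (cw_smul ρ hc), ← pm_conj ρ hc, inv_eq_of_mul_eq_one_right (a := pm ρ) (by rw [← map_mul, h2, map_one]),
      sg.eq_1 ∅, sgn_empty, map_one, ← e]
    group
  have := forall_cw h1.2 c hc
  rw [red, force_eq, ← mask_smul hp, ← mask_symmDiff, bor_eq, Bool.or_eq_true] at this
  rcases this with o | o
  · rcases sg_eq isCw_empty (hc.symmDiff (cw_smul ρ hc)) e1.symm with u | u <;> rw [u] at o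
    · rw [mask_empty] at o; exact absurd o (by decide)
    · rw [mask_symmDiff, mask_empty, mask_univ] at o; exact absurd o (by decide)
  obtain ⟨n, hn, o⟩ := (lany_iff _ _).1 o
  have hd := h1.1.1 n hn
  have d1 := (cwk_ok hd).1
  simp only [cwk, band_eq, Bool.and_eq_true, Nat.blt_eq] at hd
  rw [← mask_unmask (m := n) hd.1.1] at o
  generalize unmask n = d at d1 o
  have d2 := hc.symmDiff (d1.symmDiff (cw_smul ρ d1))
  rw [force_eq, ← mask_smul hp, ← mask_symmDiff, ← mask_symmDiff, show nat_lit 0xffffff = mask Finset.univ from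
    mask_univ.symm, ← mask_symmDiff, bor_eq, Bool.or_eq_true] at o
  have e2 : sg d * (sg c * pm ρ) * (sg d)⁻¹ = sg (c ∆ (d ∆ (ρ • d))) * pm ρ := by
    rw [sg_mul hc (d1.symmDiff (cw_smul ρ d1)), sg_mul d1 (cw_smul ρ d1), ← pm_conj ρ d1,
      inv_eq_of_mul_eq_one_right (A0_sq (sg_mem d1)), ← mul_assoc, (A0_comm (sg_mem d1) (sg_mem hc)).eq]
    group
  refine (eqv_k h (A0_C (sg_mem d1)).1).cl (e2 ▸ o.elim (k _ d2) fun o => ?_)
  rw [← sg_compl d2, symmDiff_comm]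
  exact k _ (d2.symmDiff isCw_univ) o

theorem gam (hc : IsCw c) (ha : (sg c * pm σ, y) ∈ K) (τ : M24) (hs : τ * σ * τ⁻¹ ∈ stabilizer M24 O0) :
    ∃ d x, IsCw d ∧ (sg d * pm (τ * σ * τ⁻¹), x * y * x⁻¹) ∈ K := by
  obtain ⟨x, b⟩ := G_all h τ
  obtain ⟨u, e⟩ := h.kz.fst _ (pm_C.2 hs)
  have := mul_mem (mul_mem (inv_mem (G_A0 (K := K) (sg_mem (cw_smul τ hc)))) (mul_mem (mul_mem b
    (K_G ha (mem_N0.2 ⟨c, σ, hc, rfl⟩))) (inv_mem b))) (inv_mem (K_G e (pm_mem _)))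
  obtain ⟨a, o, v⟩ := mem_AA.1 ((G_one h (x := x * y * x⁻¹ * u⁻¹)).1 (by
    convert this using 1
    refine Prod.ext ?_ (by simp)
    simp only [Prod.fst_mul, Prod.fst_inv, ← pm_conj τ hc, map_mul, map_inv]
    group))
  obtain ⟨d, hd, rfl⟩ := mem_A0.1 o
  exact ⟨d, x, hd, by simpa using mul_mem v e⟩

theorem classes (y2 : y * y = 1) (y1 : y ≠ 1) :
    IsConj y z ∨ (∃ c, (sg D0, c) ∈ K ∧ IsConj y c) ∨ ∃ t, (t0, t) ∈ K ∧ IsConj y t := by
  have k : ∀ a u, (a, u) ∈ K → Cl3 K a → IsConj y u →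
      IsConj y z ∨ (∃ c, (sg D0, c) ∈ K ∧ IsConj y c) ∨ ∃ t, (t0, t) ∈ K ∧ IsConj y t := fun a u b c e => by
    rcases c with c | c | c <;> obtain ⟨v, o, f⟩ := c u b
    · exact Or.inl ((Prod.mk.inj (h.kz.gr.ext o h.kz.mem rfl)).2 ▸ e.trans f)
    · exact Or.inr (Or.inl ⟨v, o, e.trans f⟩)
    · exact Or.inr (Or.inr ⟨v, o, e.trans f⟩)
  obtain ⟨T, hT, -, Tz⟩ := (J8.kz_lq h.kz lt0.toLQ).exists_syl
  obtain ⟨g, -, hg⟩ := syl_exists_conj_le Nat.prime_two hT (p2 y2) le_top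
  obtain ⟨a, ha⟩ := h.kz.snd _ (Tz (hg (conj_mem_conj.2 (mem_zpowers y))))
  have sq : ∀ a u, (a, u) ∈ K → IsConj y u → a * a = 1 := fun a u b e => by
    obtain ⟨g, rfl⟩ := isConj_iff.1 e
    exact congrArg Prod.fst (h.kz.gr' _ (mul_mem b b) (conj_mul_self g y2))
  obtain ⟨S, hS⟩ := exists_syl Nat.prime_two (N0 ⊓ C1[z0])
  have hi : ¬ 2 ∣ (N0 ⊓ C1[z0]).relIndex C1[z0] := by
    have e1 := card_mul_relIndex (inf_le_right : N0 ⊓ C1[z0] ≤ _)
    have e2 := card_map_pj (H := Nm ⊓ C1[zz]) (le_inf (center_le_Sg.trans Sg_le_Nm) (center_le_centralizer _))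
    rw [card_NZ, show (Nm ⊓ C1[zz]).map pj = N0 ⊓ C1[z0] from le_antisymm
      (by rintro _ ⟨g, a, rfl⟩; exact ⟨⟨g, a.1, rfl⟩, mem_C0.2 a.2⟩)
      (by rintro _ ⟨⟨g, a, rfl⟩, b⟩; exact ⟨g, ⟨a, mem_C0.1 b⟩, rfl⟩)] at e2
    rw [card_C0, show Nat.card ↥(N0 ⊓ C1[z0]) = 660602880 by omega] at e1
    omega
  have c0 : IsConj y (g * y * g⁻¹) := isConj_iff.2 ⟨g, rfl⟩
  obtain ⟨l, hl, o⟩ := syl_exists_conj_le Nat.prime_two (syl_trans Nat.prime_two hS inf_le_right hi)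
    (p2 (sq a _ ha c0)) (zpowers_le.2 (h.kz.c1 ha))
  obtain ⟨u, hu, c1⟩ := eqv_k h hl _ ha
  replace c1 := c0.trans c1
  obtain ⟨c, σ, hc, e⟩ := mem_N0.1 (hS.1 (o (conj_mem_conj.2 (mem_zpowers a)))).1
  rw [e] at hu
  have s2 : σ * σ = 1 := pm_cent fun b => A0_comm (by
    have := sq _ _ hu c1
    rw [show sg c * pm σ * (sg c * pm σ) = sg c * (pm σ * sg c * (pm σ)⁻¹) * (pm σ * pm σ) by group, pm_conj σ hc,
      mul_eq_one_iff_inv_eq, ← map_mul] at this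
    exact this ▸ inv_mem (mul_mem (sg_mem hc) (sg_mem (cw_smul σ hc))))
  by_cases s1 : σ = 1
  · rw [s1, map_one, mul_one] at hu
    obtain ⟨v, hv⟩ := exA h (sg_mem D0_mem.1)
    obtain ⟨p, -, o | o⟩ := orbs h hv (mem_AA.2 ⟨_, sg_mem hc, hu⟩) fun o => y1 (by simpa [o] using c1)
    · exact Or.inl (c1.trans (isConj_iff.2 ⟨_, o⟩).symm)
    · exact Or.inr (Or.inl ⟨v, hv, c1.trans (isConj_iff.2 ⟨_, o⟩).symm⟩)
  have st : ∀ {ρ : M24} {p}, mcode ρ = p → act p 8536111 = 8536111 → ρ ∈ stabilizer M24 O0 := fun e o =>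
    mask_inj (by rw [mask_smul e, mask_O0, o])
  have cv : ∀ {τ ρ : M24}, σ = τ * ρ * τ⁻¹ → τ⁻¹ * σ * τ⁻¹⁻¹ = ρ := fun e => by rw [e]; group
  obtain ⟨τ, o | o⟩ := class2 (orderOf_eq_prime ((pow_two σ).trans s2) s1) <;> replace o := cv o
  · obtain ⟨d, x, hd, b⟩ := gam h hc hu τ⁻¹ (o ▸ st mcode_zA (by decide +kernel))
    have c2 := c1.trans (isConj_iff.2 ⟨x, rfl⟩)
    rw [o] at b
    exact k _ _ b (cl_red h mcode_zA (o ▸ conj_mul_self _ s2) (ds := dsA) (rs := rsA) (by decide +kernel) hd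
      (sq _ _ b c2)) c2
  · obtain ⟨d, x, hd, b⟩ := gam h hc hu τ⁻¹ (o ▸ st mcode_zB (by decide +kernel))
    have c2 := c1.trans (isConj_iff.2 ⟨x, rfl⟩)
    rw [o] at b
    exact k _ _ b (cl_red h mcode_zB (o ▸ conj_mul_self _ s2) (ds := dsB) (rs := rsB) (by decide +kernel) hd
      (sq _ _ b c2)) c2

omit [Finite G] in
theorem eqv_zt : Eqv K (z0 * t0) t0 :=
  eqv_wk1 h (by rw [mt_mul, mt_z0, mt_t0]) mt_t0 (r := w_zt) (by decide +kernel)

theorem eqv_tu : Eqv K (t0 * uu) (sg D0) :=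
  have o : cwk w_tu.2.2.2 12 = true := by decide +kernel
  (eqv_wk1 h (by rw [mt_mul, mt_uu, mt_t0]) (mt_sg (cwk_ok o).1) (r := w_tu) (by decide +kernel)).trans
    (eqv_dod h (cwk_ok o).1 (cwk_ok o).2)

theorem eqv_ztu : Eqv K (z0 * t0 * uu) (sg D0) :=
  have o : cwk w_ztu.2.2.2 12 = true := by decide +kernel
  (eqv_wk1 h (by rw [mt_mul, mt_mul, mt_z0, mt_uu, mt_t0]) (mt_sg (cwk_ok o).1) (r := w_ztu) (by decide +kernel)).trans
    (eqv_dod h (cwk_ok o).1 (cwk_ok o).2)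

omit [Finite G] in
theorem eqv_t1 : Eqv K t1 t0 :=
  eqv_kst h (by simp only [t1, xx, mt_mul, mt_al vB]; rfl) mt_t0 (w := w_t1) (by decide +kernel)

omit [Finite G] in
theorem eqv_uu : Eqv K uu t0 := eqv_kst h mt_uu mt_t0 (w := w_uu) (by decide +kernel)

omit [Finite G] in
theorem eqv_oo : Eqv K oo t0 :=
  eqv_kst h (by simp only [oo, xx, mt_mul, mt_al vB]; rfl) mt_t0 (w := w_oo) (by decide +kernel)

omit h [Finite G] in
theorem t0_C : t0 ∈ C1[z0] := A9_le (mul_mem (xx_A9 (by decide)) (xx_A9 (by decide)))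

omit h [Finite G] in
theorem t1_C : t1 ∈ C1[z0] := A9_le (mul_mem (xx_A9 (by decide)) (xx_A9 (by decide)))

omit [Finite G] in
theorem eqv_tz : Eqv K (t0 * z0) t0 := mem_cent1.1 t0_C ▸ eqv_zt h

omit [Finite G] in
theorem eqv_t1z : Eqv K (t1 * z0) t0 :=
  (eqv_kst h (by simp only [t1, xx, mt_mul, mt_al vB, mt_z0]; rfl) (by rw [mt_mul, mt_t0, mt_z0]) (w := w_t1)
    (by decide +kernel)).trans (eqv_tz h)

theorem eqv_t1u : Eqv K (t1 * uu) (sg D0) :=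
  (eqv_kst h (by simp only [t1, xx, mt_mul, mt_al vB, mt_uu]; rfl) (by rw [mt_mul, mt_t0, mt_uu]) (w := w_t1u)
    (by decide +kernel)).trans (eqv_tu h)

omit [Finite G] in
theorem J1 {t : G} (ht : (t0, t) ∈ K) (n : ¬ IsConj z t) (hy : (z0 * t0, y) ∈ K) : ¬ IsConj z y := fun e =>
  let ⟨_, a, b⟩ := eqv_zt h y hy; n ((Prod.mk.inj (h.kz.gr.ext a ht rfl)).2 ▸ e.trans b)

theorem J2 (hy : (z0 * t0 * uu, y) ∈ K) : ¬ IsConj z y := fun e =>
  let ⟨_, a, b⟩ := eqv_ztu h y hy; not_conj_zc h a (e.trans b)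

theorem J3 {t : G} (n : ∀ c, (sg D0, c) ∈ K → ¬ IsConj t c) (hy : (t0 * uu, y) ∈ K) : ¬ IsConj t y := fun e =>
  let ⟨_, a, b⟩ := eqv_tu h y hy; n _ a (e.trans b)

end Cfsg.Agent.CW
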