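import Cfsg.Agent.CW.St
import Cfsg.Agent.J4.Gasch

/-! # Groups of type `Co₁`: the subgroup `2¹¹ : M₂₄` -/

set_option autoImplicit false
set_option maxRecDepth 100000

namespace Cfsg.Agent.CW

open Cfsg Cfsg.Spor Cfsg.Agent.GT Cfsg.Agent.TT Cfsg.Agent.TC Cfsg.Agent.XL Cfsg.Agent.M24 Cfsg.Agent.Leech
  Cfsg.Agent.CoS Subgroup MulAction
open scoped Pointwise symmDiff

/-- the sign changes -/
noncomputable def A0 : Subgroup Co1 := Sg.map pj
/-- the monomial group -/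
noncomputable def N0 : Subgroup Co1 := Nm.map pj
/-- a sign change -/
noncomputable def sg (c : Finset GolayPt) : Co1 := pj (sgn c)
/-- a permutation -/
noncomputable def pm : M24 →* Co1 := pj.comp prm

variable {c d : Finset GolayPt} {σ : M24} {a n : Co1}

theorem mem_A0 : a ∈ A0 ↔ ∃ c, IsCw c ∧ a = sg c :=
  ⟨by rintro ⟨_, ⟨c, hc, rfl⟩, rfl⟩; exact ⟨c, hc, rfl⟩, by rintro ⟨c, hc, rfl⟩; exact ⟨_, ⟨c, hc, rfl⟩, rfl⟩⟩

theorem sg_mem (hc : IsCw c) : sg c ∈ A0 := mem_A0.2 ⟨c, hc, rfl⟩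

theorem mem_N0 : n ∈ N0 ↔ ∃ c σ, IsCw c ∧ n = sg c * pm σ :=
  ⟨by rintro ⟨_, ⟨c, σ, hc, rfl⟩, rfl⟩; exact ⟨c, σ, hc, map_mul _ _ _⟩,
    by rintro ⟨c, σ, hc, rfl⟩; exact ⟨_, ⟨c, σ, hc, rfl⟩, map_mul _ _ _⟩⟩

theorem A0_le : A0 ≤ N0 := map_mono Sg_le_Nm

theorem pm_mem (σ : M24) : pm σ ∈ N0 := ⟨_, prm_mem_Nm σ, rfl⟩

theorem pm_conj (σ : M24) (hc : IsCw c) : pm σ * sg c * (pm σ)⁻¹ = sg (σ • c) := by
  rw [M24_smul_def, sg, sg, ← prm_conj_sgn σ hc, map_mul, map_mul, map_inv]; rfl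

theorem sg_compl (hc : IsCw c) : sg (Finset.univ ∆ c) = sg c := by
  rw [sg, sgn_symmDiff isCw_univ hc, map_mul, ← ng, pj_ng, one_mul, sg]

theorem card_compl (c : Finset GolayPt) : (Finset.univ ∆ c).card + c.card = 24 := by
  rw [symmDiff_of_ge (Finset.subset_univ c), Finset.card_sdiff_add_card_eq_card (Finset.subset_univ c),
    Finset.card_univ, card_golayPt]

theorem sg_eq (hc : IsCw c) (hd : IsCw d) (e : sg c = sg d) : d = c ∨ d = Finset.univ ∆ c :=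
  (pj_eq.1 e).imp (sgn_inj hd hc) fun e => sgn_inj hd (isCw_univ.symmDiff hc) (e.trans (sgn_symmDiff isCw_univ hc).symm)

theorem sgD_ne : sg D0 ≠ 1 := fun e => by
  have := sg_eq D0_mem.1 isCw_empty (e.trans (by rw [sg, sgn_empty, map_one]))
  rw [D0_eq] at this; revert this; decide +kernel

theorem A0_comm {b : Co1} (ha : a ∈ A0) (hb : b ∈ A0) : Commute a b := by
  obtain ⟨c, hc, rfl⟩ := mem_A0.1 ha
  obtain ⟨d, hd, rfl⟩ := mem_A0.1 hb
  exact (show Commute (sgn c) (sgn d) from sgn_comm hc hd).map pj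

theorem A0_sq (ha : a ∈ A0) : a * a = 1 := by
  obtain ⟨c, hc, rfl⟩ := mem_A0.1 ha
  rw [sg, ← map_mul, sgn_mul_self, map_one]

theorem z0_sg : z0 = sg O0 := by
  rw [← sg_compl O0_mem.1, show Finset.univ ∆ O0 = OC by decide +kernel]; rfl

theorem z0_A0 : z0 ∈ A0 := z0_sg ▸ sg_mem O0_mem.1

theorem A0_C : A0 ≤ C1[z0] ⊓ C1[s0] := fun _ ha => ⟨mem_cent1.2 (A0_comm ha z0_A0),
  mem_cent1.2 (A0_comm ha (s0_eq ▸ sg_mem ((isCw_unmask (by norm_num)).2 (by decide +kernel))))⟩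

theorem sep {i j : GolayPt} (h : i ≠ j) : ∃ c ∈ octads, (i ∈ c ↔ j ∉ c) := by
  have : ∃ m ∈ basisM, isOct m = true ∧ (m.testBit (idx i) = true ↔ ¬ m.testBit (idx j) = true) := by
    revert i j; decide +kernel
  obtain ⟨m, -, a, b⟩ := this
  exact ⟨_, (isOct_sound a).1, by rwa [mem_unmask, mem_unmask]⟩

theorem N0_eq : N[A0] = N0 := by
  refine le_antisymm (fun g hg => ?_) ((map_mono Nm_le_norm_Sg).trans (le_normalizer_map _))
  obtain ⟨g, rfl⟩ := pj_surj g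
  have h1 : ∀ i j, i ≠ j → (g • e8 none).1 i = 0 ∨ (g • e8 none).1 j = 0 := fun i j hij => by
    obtain ⟨c, hc, e⟩ := sep hij
    obtain ⟨_, ⟨d, hd, rfl⟩, e'⟩ := conj_mem_of_mem_norm (inv_mem hg) (sg_mem hc.1)
    have k : sgn c • g • e8 none = g • e8 none ∨ sgn c • g • e8 none = -(g • e8 none) := by
      rw [sg, ← map_inv, ← map_inv, ← map_mul, ← map_mul, pj_eq, inv_inv] at e'
      rw [← mul_smul, show sgn c * g = g * (g⁻¹ * sgn c * g) by group, mul_smul]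
      rcases e' with e' | e' <;> rw [e'] <;> simp only [mul_smul, ng_smul, sgn_e8 hd] <;> split_ifs <;> simp
    have a := sgn_apply hc.1 (g • e8 none) i
    have b := sgn_apply hc.1 (g • e8 none) j
    by_cases hi : i ∈ c
    · rw [if_pos hi] at a; rw [if_neg (e.1 hi)] at b
      rcases k with k | k <;> simp only [k, AddSubgroup.coe_neg, Pi.neg_apply] at a b <;> omega
    · rw [if_neg hi] at a; rw [if_pos (not_not.1 fun o => hi (e.2 o))] at b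
      rcases k with k | k <;> simp only [k, AddSubgroup.coe_neg, Pi.neg_apply] at a b <;> omega
  have hn := (norm_smul g (e8 none)).trans (norm_e8 none)
  obtain ⟨p, hp⟩ : ∃ p, (g • e8 none).1 p ≠ 0 := by
    by_contra! o
    simp [sqNorm, o] at hn
  have h2 : ∀ j ≠ p, (g • e8 none).1 j = 0 := fun j hj => (h1 j p hj).resolve_right hp
  rw [sqNorm, Finset.sum_eq_single p (fun j _ hj => by rw [h2 j hj]; simp) (by simp)] at hn
  refine ⟨g, mem_Nm_iff.2 (Cong.trans ?_ (e8_cong p none)), rfl⟩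
  rcases sq_eq_sq_iff_eq_or_eq_neg.1 (hn.trans (show (64 : ℤ) = 8 ^ 2 by norm_num)) with o | o
  · rw [show (g • e8 none).1 = (e8 p).1 from funext fun j => by
      by_cases hj : j = p
      · subst hj; simp [o, e8_apply]
      · simp [h2 j hj, e8_apply, hj]]
    exact Cong.refl _
  · rw [show (g • e8 none).1 = -(e8 p).1 from funext fun j => by
      by_cases hj : j = p
      · subst hj; simp [o, e8_apply]
      · simp [h2 j hj, e8_apply, hj]]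
    exact cong_neg (e8 p).2

theorem pm_cent (h : ∀ a ∈ A0, Commute (pm σ) a) : σ = 1 := Subtype.ext (Equiv.ext fun i => by
  by_contra o
  obtain ⟨c, hc, e⟩ := sep o
  have h8 : σ • c ∈ octads := octad_smul hc σ.2
  have e2 : σ.1 • c = c := (sg_eq hc.1 h8.1 ((commute_iff_conj.1 (h _ (sg_mem hc.1))).symm.trans
    (pm_conj σ hc.1))).resolve_right fun o => by
      have := card_compl c
      rw [← o, h8.2, hc.2] at this; omega
  have k : σ.1 i ∈ σ.1 • c ↔ i ∈ c := Finset.smul_mem_smul_finset_iff σ.1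
  rw [e2] at k
  simp only [OneMemClass.coe_one, Equiv.Perm.coe_one, id] at e
  tauto)

theorem cent_A0 (h : ∀ a ∈ A0, Commute n a) : n ∈ A0 := by
  obtain ⟨c, σ, hc, rfl⟩ := mem_N0.1 (N0_eq ▸ mem_normalizer_of_conj fun a ha =>
    (commute_iff_conj.1 (h a ha)).symm ▸ ha)
  rw [pm_cent (σ := σ) fun a ha => by simpa using (A0_comm (sg_mem hc) ha).inv_left.mul_left (h a ha), map_one,
    mul_one]
  exact sg_mem hc

theorem pm_C : pm σ ∈ C1[z0] ↔ σ ∈ stabilizer M24 O0 := by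
  rw [← mem_CZ isCw_empty, sgn_empty, one_mul, ← mem_C0]; rfl

/-- the permutation part of `g0` -/
noncomputable def tau : M24 := elt 0x69623bbe151266e0ad94b10e044946

theorem g0_N0 : g0 = sg (unmask 0xa5eff8) * pm tau := mt_inj (by
  rw [sg, pm, MonoidHom.comp_apply, ← map_mul, mt_pj, mat_sgn_prm ((isCw_unmask (by norm_num)).2 (by decide +kernel)),
    tau, mcode_elt (by decide +kernel), g0, mt_al vB]
  decide +kernel)

theorem gen_M24 {S : Subgroup M24} (h : stabilizer M24 O0 ≤ S) (ht : tau ∈ S) : S = ⊤ := by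
  have k : ∀ p, band (isM24 p) (Nat.beq (act p 8536111) 8536111) = true → ∃ σ ∈ S, mcode σ = p := fun p hp => by
    rw [band_eq, Bool.and_eq_true, Nat.beq_eq] at hp
    refine ⟨elt p, h (mask_inj ?_), mcode_elt hp.1⟩
    rw [M24_smul_def, ← act_mask, ← mcode, mcode_elt hp.1, mask_O0, hp.2]
  have k2 : ∀ p q r, ∀ g : M24, (∃ σ ∈ S, mcode σ = p) → (∃ σ ∈ S, mcode σ = q) → (∃ σ ∈ S, mcode σ = r) →
      mcode g = mul p (mul 0x69623bbe151266e0ad94b10e044946 (mul q (mul 0x69623bbe151266e0ad94b10e044946 r))) →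
      g ∈ S := by
    rintro _ _ _ g ⟨a, ha, rfl⟩ ⟨b, hb, rfl⟩ ⟨c, hc, rfl⟩ e
    rw [← mcode_elt (p := 0x69623bbe151266e0ad94b10e044946) (by decide +kernel), ← gcM.code_mul, ← gcM.code_mul,
      ← gcM.code_mul, ← gcM.code_mul] at e
    exact gcM.inj e ▸ mul_mem ha (mul_mem ht (mul_mem hb (mul_mem ht hc)))
  refine eq_top_iff.2 (gen_gM ▸ gen_le fun g hg => ?_)
  rcases List.mem_pair.1 hg with e | e
  · exact k2 0x8c15531c337ba845b50965852b9460 0x711137d6348024c52d2d35847b9423 0x89d90a54a835d2b7aa449d86d70402 g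
      (k _ (by decide +kernel)) (k _ (by decide +kernel)) (k _ (by decide +kernel)) (e.trans (by decide +kernel))
  · exact k2 0xbdab49ca307b9ac5a928398a418820 0x1410ba346650487b3e534b0b5046ee 0xbceaf418366c550a2cec224b270803 g
      (k _ (by decide +kernel)) (k _ (by decide +kernel)) (k _ (by decide +kernel)) (e.trans (by decide +kernel))

/-! ### The group side -/

variable {G : Type*} [Group G] [Finite G] {K M : Subgroup (Co1 × G)} {z x y : G} {p : Co1 × G}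

/-- the graph on the sign changes -/
noncomputable def DD (K : Subgroup (Co1 × G)) : Subgroup (Co1 × G) := K ⊓ A0.comap (MonoidHom.fst _ _)
/-- the elementary abelian subgroup -/
noncomputable def AA (K : Subgroup (Co1 × G)) : Subgroup G := (DD K).map (MonoidHom.snd _ _)

omit [Finite G] in
theorem mem_AA : x ∈ AA K ↔ ∃ a ∈ A0, (a, x) ∈ K :=
  ⟨by rintro ⟨p, hp, rfl⟩; exact ⟨p.1, hp.2, hp.1⟩, fun ⟨a, b, c⟩ => ⟨(a, x), ⟨c, b⟩, rfl⟩⟩

theorem K_G (hp : p ∈ K) (hn : p.1 ∈ N0) : p ∈ N[DD K] := mem_normalizer_of_conj fun _ hr =>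
  ⟨K.mul_mem (K.mul_mem hp hr.1) (K.inv_mem hp), conj_mem_of_mem_norm (H := A0) (N0_eq.ge hn) hr.2⟩

omit [Finite G] in
theorem G_snd (hp : p ∈ N[DD K]) : p.2 ∈ N[AA K] := le_normalizer_map _ ⟨p, hp, rfl⟩

omit [Finite G] in
theorem G_conj (hp : p ∈ N[DD K]) (ha : a ∈ A0) (hx : (a, x) ∈ K) : (p.1 * a * p.1⁻¹, p.2 * x * p.2⁻¹) ∈ K :=
  (conj_mem_of_mem_norm hp (show (a, x) ∈ DD K from ⟨hx, ha⟩)).1

variable (h : RH z0 s0 z K M)
include h

theorem M_G (hp : p ∈ M) (hn : p.1 ∈ N0) : p ∈ N[DD K] := mem_normalizer_of_conj fun _ hr =>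
  have a := conj_mem_of_mem_norm (H := A0) (N0_eq.ge hn) hr.2
  ⟨h.cp _ (mul_mem (mul_mem hp (h.mem hr.1 (cent_le_norm_VV (A0_C hr.2)))) (inv_mem hp)) (A0_C a).1, a⟩

omit [Finite G] in
theorem exA (ha : a ∈ A0) : ∃ x, (a, x) ∈ K := h.kz.fst a (A0_C ha).1

omit [Finite G] in
theorem G_fst (hp : p ∈ N[DD K]) : p.1 ∈ N0 := N0_eq ▸ mem_normalizer_of_conj fun _ ha =>
  let ⟨x, b⟩ := exA h ha; (conj_mem_of_mem_norm hp (show (_, x) ∈ DD K from ⟨b, ha⟩)).2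

omit [Finite G] in
theorem AA_comm (hx : x ∈ AA K) (hy : y ∈ AA K) : Commute x y := by
  obtain ⟨a, ha, b⟩ := mem_AA.1 hx
  obtain ⟨c, hc, d⟩ := mem_AA.1 hy
  exact congrArg Prod.snd (h.kz.gr.comm b d (A0_comm ha hc)).eq

omit [Finite G] in
theorem z_AA : z ∈ AA K := mem_AA.2 ⟨z0, z0_A0, h.kz.mem⟩

theorem G_one : (1, x) ∈ N[DD K] ↔ x ∈ AA K := by
  refine ⟨fun hx => ?_, fun hx => mem_normalizer_of_conj fun r hr => ?_⟩
  · have k : ∀ a ∈ A0, ∀ y, (a, y) ∈ K → Commute x y := fun a ha y b => commute_iff_conj.2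
      (congrArg Prod.snd (h.kz.gr.ext (G_conj hx ha b) b (by simp)) :)
    obtain ⟨n, hn⟩ := h.kz.snd x (mem_cent1.2 (k _ z0_A0 _ h.kz.mem))
    exact mem_AA.2 ⟨n, cent_A0 fun a ha => let ⟨y, b⟩ := exA h ha
      congrArg Prod.fst (h.kz.comm' hn b (k a ha y b)).eq, hn⟩
  · rwa [show (1, x) * r * (1, x)⁻¹ = r from Prod.ext (by simp) (commute_iff_conj.1 (AA_comm h hx ⟨r, hr, rfl⟩))]

omit [Finite G] in
theorem G_one' (hn : (n, 1) ∈ N[DD K]) : n ∈ A0 := cent_A0 fun a ha => let ⟨_, b⟩ := exA h ha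
  commute_iff_conj.2 (congrArg Prod.fst (h.kz.ext' (G_conj hn ha b) b (by simp)) :)

omit h in
theorem G_A0 (ha : a ∈ A0) : (a, 1) ∈ N[DD K] := mem_normalizer_of_conj fun r hr => by
  rwa [show (a, 1) * r * (a, 1)⁻¹ = r from Prod.ext (commute_iff_conj.1 (A0_comm ha hr.2)) (by simp)]

theorem G_pm (hp : p ∈ N[DD K]) : ∃ c σ, IsCw c ∧ p.1 = sg c * pm σ ∧ (pm σ, p.2) ∈ N[DD K] := by
  obtain ⟨c, σ, hc, e⟩ := mem_N0.1 (G_fst h hp)
  exact ⟨c, σ, hc, e, by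
    rw [show (pm σ, p.2) = (sg c, 1)⁻¹ * p from Prod.ext (by simp [e]) (by simp)]
    exact mul_mem (inv_mem (G_A0 (sg_mem hc))) hp⟩

theorem G_all (σ : M24) : ∃ x, (pm σ, x) ∈ N[DD K] := by
  have : ((N[DD K]).map (MonoidHom.fst _ _)).comap pm = ⊤ := gen_M24 (fun σ hσ =>
    let ⟨x, b⟩ := h.kz.fst _ (pm_C.2 hσ); ⟨_, K_G b (pm_mem σ), rfl⟩) (by
      obtain ⟨x, b⟩ := h.nf g0 (g0_eq ▸ mul_mem v4.na v4.nb)
      have hc : IsCw (unmask 0xa5eff8) := (isCw_unmask (by norm_num)).2 (by decide +kernel)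
      exact ⟨_, mul_mem (inv_mem (G_A0 (sg_mem hc))) (M_G h b (mem_N0.2 ⟨_, _, hc, g0_N0⟩)), by simp [g0_N0]⟩)
  obtain ⟨p, a, b⟩ : σ ∈ ((N[DD K]).map (MonoidHom.fst _ _)).comap pm := this ▸ mem_top σ
  exact ⟨p.2, b ▸ a⟩

theorem G_N0 (hn : n ∈ N0) : ∃ x, (n, x) ∈ N[DD K] := by
  obtain ⟨c, σ, hc, rfl⟩ := mem_N0.1 hn
  obtain ⟨x, b⟩ := G_all h σ
  exact ⟨_, mul_mem (G_A0 (sg_mem hc)) b⟩

omit [Finite G] in
theorem card_AA : Nat.card (AA K) = 2048 := by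
  rw [AA, card_map_of (S := DD K) fun p hp => h.kz.gr' p hp.1,
    ← card_map_of (S := DD K) (φ := MonoidHom.fst _ _) fun p hp => h.kz.gr p hp.1, ← card_E1]
  exact congrArg (fun H : Subgroup Co1 => Nat.card H) (le_antisymm (by rintro _ ⟨p, hp, rfl⟩; exact hp.2)
    fun a ha => let ⟨x, b⟩ := exA h ha; ⟨(a, x), ⟨b, ha⟩, rfl⟩)

theorem card_lift {H : Subgroup Co1} (h1 : A0 ≤ H) (h2 : H ≤ N0) :
    Nat.card ((N[DD K] ⊓ H.comap (MonoidHom.fst _ _)).map (MonoidHom.snd _ _)) = Nat.card H := by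
  have e1 := card_map_mul_card_inf_ker (MonoidHom.snd Co1 G) (N[DD K] ⊓ H.comap (MonoidHom.fst _ _))
  have e2 := card_map_mul_card_inf_ker (MonoidHom.fst Co1 G) (N[DD K] ⊓ H.comap (MonoidHom.fst _ _))
  rw [show (MonoidHom.snd Co1 G).ker ⊓ (N[DD K] ⊓ H.comap (MonoidHom.fst _ _)) = A0.map (MonoidHom.inl _ _) from
    le_antisymm (fun p hp => ⟨p.1, G_one' h ((show p.2 = 1 from hp.1) ▸ hp.2.1), Prod.ext rfl hp.1.symm⟩)
      (by rintro _ ⟨a, ha, rfl⟩; exact ⟨rfl, G_A0 ha, h1 ha⟩),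
    card_map_of_injective (fun _ _ e => congrArg Prod.fst e), A0, card_E1] at e1
  rw [show (MonoidHom.fst Co1 G).ker ⊓ (N[DD K] ⊓ H.comap (MonoidHom.fst _ _)) = (AA K).map (MonoidHom.inr _ _) from
    le_antisymm (fun p hp => ⟨p.2, (G_one h).1 ((show p.1 = 1 from hp.1) ▸ hp.2.1), Prod.ext hp.1.symm rfl⟩)
      (by rintro _ ⟨a, ha, rfl⟩; exact ⟨rfl, (G_one h).2 ha, one_mem H⟩),
    card_map_of_injective (fun _ _ e => congrArg Prod.snd e), card_AA h,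
    show (N[DD K] ⊓ H.comap (MonoidHom.fst _ _)).map (MonoidHom.fst Co1 G) = H from le_antisymm
      (by rintro _ ⟨p, hp, rfl⟩; exact hp.2) fun n hn => let ⟨x, b⟩ := G_N0 h (h2 hn); ⟨(n, x), ⟨b, hn⟩, rfl⟩] at e2
  omega

omit [Finite G] in
theorem card_Cz : Nat.card C1[z] = 89181388800 := by
  rw [← card_C0, show C1[z] = K.map (MonoidHom.snd _ _) from le_antisymm (fun d hd => let ⟨c, b⟩ := h.kz.snd d hd
      ⟨_, b, rfl⟩) (by rintro _ ⟨p, hp, rfl⟩; exact h.kz.c2 hp), show C1[z0] = K.map (MonoidHom.fst _ _) from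
      le_antisymm (fun d hd => let ⟨c, b⟩ := h.kz.fst d hd; ⟨_, b, rfl⟩) (by rintro _ ⟨p, hp, rfl⟩; exact h.kz.c1 hp),
    card_map_of (S := K) (φ := MonoidHom.fst _ _) fun p a e => h.kz.gr p a e,
    card_map_of (S := K) (φ := MonoidHom.snd _ _) fun p a e => h.kz.gr' p a e]

theorem dvd_Cc (hx : (sg D0, x) ∈ K) : 2048 * 95040 ∣ Nat.card C1[x] := by
  have e : Nat.card ↥(Nm ⊓ C1[sgn D0]) = 4096 * 95040 := by
    rw [card_mono inf_le_left (P := fun _ => True) (X := stabilizer M24 D0) fun c σ hc => by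
      rw [Subgroup.mem_inf, true_and, and_iff_right (mem_Nm.2 ⟨c, σ, hc, rfl⟩), mem_cent1, mul_assoc,
        prm_mul_sgn σ D0_mem.1, ← mul_assoc, ← mul_assoc, mul_left_inj, sgn_comm D0_mem.1 hc, mul_right_inj]
      exact ⟨sgn_inj (IsCw.smul D0_mem.1 σ.2) D0_mem.1, fun e => congrArg sgn e⟩,
      stab_D0, card_of_chk cD_chk (n := 95040) (by decide +kernel), ncard_cw (f := fun _ => true) (by simp)]
    decide +kernel
  have e2 := card_map_pj (H := Nm ⊓ C1[sgn D0]) (le_inf (center_le_Sg.trans Sg_le_Nm) (center_le_centralizer _))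
  have e3 := card_lift h (H := (Nm ⊓ C1[sgn D0]).map pj) (map_mono (le_inf Sg_le_Nm (by
    rintro _ ⟨c, hc, rfl⟩; exact mem_cent1.2 (sgn_comm hc D0_mem.1)))) (map_mono inf_le_left)
  rw [show 2048 * 95040 = Nat.card ((Nm ⊓ C1[sgn D0]).map pj) by omega, ← e3]
  refine card_dvd_of_le ?_
  rintro _ ⟨p, ⟨a, g, b, e⟩, rfl⟩
  refine mem_cent1.2 (commute_iff_conj.2 (congrArg Prod.snd (h.kz.gr.ext (G_conj a (sg_mem D0_mem.1) hx) hx ?_) :))
  exact commute_iff_conj.1 ((show p.1 = pj g from e.symm) ▸ (show Commute g (sgn D0) from mem_cent1.1 b.2).map pj)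

theorem not_conj_zc (hx : (sg D0, x) ∈ K) : ¬ IsConj z x := fun e => by
  obtain ⟨g, rfl⟩ := isConj_iff.1 e
  have := dvd_Cc h hx
  rw [← conj_cent1, card_conj, card_Cz h] at this
  norm_num at this

theorem orbs (hc : (sg D0, y) ∈ K) (hx : x ∈ AA K) (h1 : x ≠ 1) :
    ∃ p ∈ N[DD K], p.2 * z * p.2⁻¹ = x ∨ p.2 * y * p.2⁻¹ = x := by
  obtain ⟨a, ha, b⟩ := mem_AA.1 hx
  obtain ⟨c, hc', rfl⟩ := mem_A0.1 ha
  have k : ∀ d : Finset GolayPt, IsCw d → ∀ u, (sg d, u) ∈ K → ∀ σ : M24, sg (σ • d) = sg c →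
      ∃ p ∈ N[DD K], p.2 * u * p.2⁻¹ = x := fun d hd u hu σ e =>
    let ⟨n, o⟩ := G_all h σ
    ⟨_, o, congrArg Prod.snd (h.kz.gr.ext (G_conj o (sg_mem hd) hu) b ((pm_conj σ hd).trans e))⟩
  have k8 : ∀ d ∈ octads, sg d = sg c → ∃ p ∈ N[DD K], p.2 * z * p.2⁻¹ = x ∨ p.2 * y * p.2⁻¹ = x := fun d hd e =>
    let ⟨σ, o⟩ := exists_smul_O0 hd
    let ⟨p, u, v⟩ := k O0 O0_mem.1 z (z0_sg ▸ h.kz.mem) σ (o ▸ e); ⟨p, u, Or.inl v⟩
  have k0 : ∀ d : Finset GolayPt, d.card = 0 → sg d ≠ sg c := fun d hd e => h1 (congrArg Prod.snd (h.kz.gr _ b (by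
    rw [← e, Finset.card_eq_zero.1 hd, sg, sgn_empty, map_one])))
  have := card_compl c
  rcases hc'.card with e | e | e | e | e
  · exact absurd rfl (k0 c e)
  · exact k8 c ⟨hc', e⟩ rfl
  · obtain ⟨σ, o⟩ := exists_smul_D0 ⟨hc', e⟩
    obtain ⟨p, u, v⟩ := k D0 D0_mem.1 y hc σ (o ▸ rfl)
    exact ⟨p, u, Or.inr v⟩
  · exact k8 _ ⟨isCw_univ.symmDiff hc', by omega⟩ (sg_compl hc')
  · exact absurd (sg_compl hc') (k0 _ (by omega))

theorem norm_AA (hx : x ∈ N[AA K]) : ∃ n, (n, x) ∈ N[DD K] := by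
  obtain ⟨y, hy⟩ := exA h (sg_mem D0_mem.1)
  have z1 : z ≠ 1 := fun e => lt0.ne (congrArg Prod.fst (h.kz.gr' _ h.kz.mem e))
  obtain ⟨p, hp, e | e⟩ := orbs h hy (conj_mem_of_mem_norm hx (z_AA h)) (by simpa using z1)
  · obtain ⟨n, hn⟩ := h.kz.snd (p.2⁻¹ * x) (mem_cent1.2 (by
      rw [mul_assoc, mul_inv_eq_iff_eq_mul.1 e.symm]; group))
    have hN := mul_mem (inv_mem (G_snd hp)) hx
    have : (n, p.2⁻¹ * x) ∈ N[DD K] := mem_normalizer_of_conj fun r hr => by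
      obtain ⟨s, hs, o⟩ := conj_mem_of_mem_norm hN (show r.2 ∈ AA K from ⟨r, hr, rfl⟩)
      exact h.kz.ext' hs.1 (mul_mem (mul_mem hn hr.1) (inv_mem hn)) o ▸ hs
    exact ⟨p.1 * n, mul_inv_cancel_left p.2 x ▸ mul_mem hp this⟩
  · exact absurd (isConj_iff.2 ⟨p.2⁻¹ * x, by rw [mul_inv_rev, mul_assoc, mul_assoc, ← mul_assoc x, ← mul_assoc _ x⁻¹, ← e]; group⟩)
      (not_conj_zc h hy)

theorem exists_theta : ∃ θ : N[AA K] →* M24, (∀ n σ, θ n = σ ↔ (pm σ, n.1) ∈ N[DD K]) := by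
  let R : Subgroup (N[AA K] × M24) := (N[DD K]).comap
    ((pm.comp (MonoidHom.snd _ _)).prod ((N[AA K]).subtype.comp (MonoidHom.fst _ _)))
  have g : Gr R := fun p hp e => Prod.ext e (pm_cent fun a => A0_comm (G_one' h (by
    have : (pm p.2, p.1.1) ∈ N[DD K] := hp
    rwa [e] at this)))
  have t : ∀ c, ∃ p ∈ R, p.1 = c := fun c => by
    obtain ⟨n, a⟩ := norm_AA h c.2
    obtain ⟨-, σ, -, -, b⟩ := G_pm h a
    exact ⟨(c, σ), b, rfl⟩
  obtain ⟨θ, e⟩ := g.exists_hom t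
  refine ⟨θ, fun n σ => ⟨fun o => ?_, fun o => e (n, σ) o⟩⟩
  obtain ⟨p, a, rfl⟩ := t n
  rw [← o, e p a]; exact a

theorem golay : IsElementaryAbelian 2 (AA K) ∧ Nat.card (AA K) = 2 ^ 11 ∧ z ∈ AA K ∧
    ∃ _ : ((AA K).subgroupOf N[AA K]).Normal, Nonempty (N[AA K] ⧸ (AA K).subgroupOf N[AA K] ≃* M24) ∧
      (∃ H : Subgroup N[AA K], ((AA K).subgroupOf N[AA K]).IsComplement' H) ∧ ∃ a ∈ AA K, ∃ b ∈ AA K, a ≠ 1 ∧ b ≠ 1 ∧
        (∀ n ∈ N[AA K], n * a * n⁻¹ ≠ b) ∧ ∀ c ∈ AA K, c ≠ 1 → ∃ n ∈ N[AA K], n * c * n⁻¹ = a ∨ n * c * n⁻¹ = b := by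
  obtain ⟨y, hy⟩ := exA h (sg_mem D0_mem.1)
  obtain ⟨θ, e⟩ := exists_theta h
  have z1 : z ≠ 1 := fun e => lt0.ne (congrArg Prod.fst (h.kz.gr' _ h.kz.mem e))
  have hk : θ.ker = (AA K).subgroupOf N[AA K] := Subgroup.ext fun n => by
    rw [MonoidHom.mem_ker, e, map_one, G_one h, mem_subgroupOf]
  have hs : Function.Surjective θ := fun σ => let ⟨x, b⟩ := G_all h σ; ⟨⟨x, G_snd b⟩, (e _ _).2 b⟩
  have hc : IsMulCommutative ((AA K).subgroupOf N[AA K]) := isMulCommutative_iff_forall.2 fun a ha b hb =>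
    Subtype.ext (AA_comm h ha hb)
  refine ⟨⟨isMulCommutative_iff_forall.2 fun a ha b hb => AA_comm h ha hb, fun a ha => ?_⟩, card_AA h, z_AA h,
    inferInstance, ⟨(QuotientGroup.quotientMulEquivOfEq hk.symm).trans
      (QuotientGroup.quotientKerEquivOfSurjective θ hs)⟩, ?_, z, z_AA h, y, mem_AA.2 ⟨_, sg_mem D0_mem.1, hy⟩, z1,
    fun o => sgD_ne (congrArg Prod.fst (h.kz.gr' _ hy o)), fun n _ o => not_conj_zc h hy (isConj_iff.2 ⟨n, o⟩), fun c hc c1 => ?_⟩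
  · obtain ⟨b, hb, o⟩ := mem_AA.1 ha
    exact congrArg Prod.snd (h.kz.gr _ (pow_mem o 2) ((sq b).trans (A0_sq hb)))
  · let B : Subgroup N[AA K] := ((K ⊓ pm.range.comap (MonoidHom.fst _ _)).map (MonoidHom.snd _ _)).subgroupOf _
    have k : ∀ n ∈ B, (pm (θ n), n.1) ∈ K := by
      rintro n ⟨⟨_, _⟩, ⟨a, σ, rfl⟩, rfl⟩
      rwa [(e n σ).2 (K_G a (pm_mem σ))]
    refine J4.gaschutz _ ((stabilizer M24 O0).comap θ) (fun n hn => ?_) ?_ B (fun n hn => pm_C.1 (h.kz.c1 (k n hn)))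
      (eq_bot_iff.2 fun n hn => ?_) (le_antisymm (sup_le (fun n hn => ?_) fun n hn => pm_C.1 (h.kz.c1 (k n hn)))
        fun n hn => ?_)
    · rw [mem_comap, MonoidHom.mem_ker.1 (hk.ge hn)]; exact one_mem _
    · rw [index_comap_of_surjective _ hs, index_stabilizer, orbit_O0, ncard_octads, card_subgroupOf le_normalizer,
        card_AA h]
      norm_num
    · have := k n hn.1
      rw [MonoidHom.mem_ker.1 (hk.ge hn.2), map_one] at this
      exact Subtype.ext (congrArg Prod.snd (h.kz.gr _ this rfl))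
    · rw [mem_comap, MonoidHom.mem_ker.1 (hk.ge hn)]; exact one_mem _
    · obtain ⟨x, a⟩ := h.kz.fst _ (pm_C.2 hn)
      have b := K_G a (pm_mem _)
      refine (mul_mem_cancel_right (inv_mem (mem_sup_right (show ⟨x, G_snd b⟩ ∈ B from ⟨_, ⟨a, _, rfl⟩, rfl⟩)))).1
        (mem_sup_left (hk.le ?_))
      rw [MonoidHom.mem_ker, map_mul, map_inv, (e ⟨x, _⟩ _).2 b, mul_inv_cancel]
  · obtain ⟨p, a, b⟩ := orbs h hy hc c1
    exact ⟨p.2⁻¹, inv_mem (G_snd a), b.imp (fun b => by rw [← b]; group) fun b => by rw [← b]; group⟩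

end Cfsg.Agent.CW
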