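import Cfsg.Agent.CW.T0
import Cfsg.Agent.CW.Ab
import Cfsg.Agent.CW.D2
import Cfsg.Agent.CW.D3
import Cfsg.Agent.M24.Subs

/-! # The centralizer of `z0` and `t0` -/

set_option autoImplicit false
set_option maxRecDepth 100000
set_option Elab.async false

namespace Cfsg.Agent.CW

open Cfsg Cfsg.Spor Cfsg.Agent.GT Cfsg.Agent.TT Cfsg.Agent.TC Cfsg.Agent.XL Cfsg.Agent.M24 Cfsg.Agent.Leech
  Cfsg.Agent.CoS Subgroup MulAction

variable {l ls : List ℕ} {t : T} {g : Co1}

theorem enumB (h : Valid mt l) {n : ℕ} (hc : band (lmapk ls (lget l onem) fun gl => orbChk mulf gl onem (2 ^ 576) t)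
    (Nat.beq t.size n) = true) : Nat.card (Mb (al l) ls) = n ∧ ∀ g, g ∈ Mb (al l) ls ↔ mt g ∈ t.keys := by
  rw [band_eq, Bool.and_eq_true, lmapk_eq, Nat.beq_eq] at hc
  have e : gen mt (ls.map (lget l onem)) = Mb (al l) ls := congrArg Subgroup.closure (Set.ext fun g => by
    simp only [Set.mem_ofPred_eq, List.mem_map, Set.mem_image, ← mt_al h, mt_inj.eq_iff])
  obtain ⟨a, b, -⟩ := CX.acM.orb_sound (gens := ls.map (lget l onem)) (fun s hs => by
    obtain ⟨i, -, rfl⟩ := List.mem_map.1 hs; exact ⟨_, mt_al h i⟩) (x₀ := 1) trivial (by rw [mt_one]; exact hc.1)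
  have o : orbit (gen mt (ls.map (lget l onem))) (1 : Co1) = gen mt (ls.map (lget l onem)) :=
    Set.ext fun x => ⟨by rintro ⟨g, rfl⟩; simp [Subgroup.smul_def], fun hx => ⟨⟨x, hx⟩, mul_one x⟩⟩
  rw [o, e] at a b
  exact ⟨b.trans hc.2, fun g => ⟨fun hg => (a.le hg).2, fun hg => a.ge ⟨trivial, hg⟩⟩⟩

theorem keys_all {f : ℕ → Bool} (h : (t.all fun k _ _ => f k) = true) {k : ℕ} (hk : k ∈ t.keys) : f k = true :=
  let ⟨_, _, e⟩ := T.mem_keys.1 hk; (T.all_iff _ _).1 h _ _ _ e

theorem mt_xx (i : ℕ) : mt (xx i) = lget cB onem (i + 4) := mt_al vB _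
theorem mt5 : mt t0 = lget cE onem 5 := by simp only [t0, mt_mul, mt_xx]; decide +kernel
theorem mt6 : mt t1 = lget cE onem 6 := by simp only [t1, mt_mul, mt_xx]; decide +kernel
theorem mt7 : mt oo = lget cE onem 7 := by simp only [oo, mt_mul, mt_xx]; decide +kernel

theorem al5 : al cE 5 = t0 := mt_inj ((mt_al vcE 5).trans mt5.symm)
theorem al6 : al cE 6 = t1 := mt_inj ((mt_al vcE 6).trans mt6.symm)
theorem al7 : al cE 7 = oo := mt_inj ((mt_al vcE 7).trans mt7.symm)

theorem nrm {l' ls' : List ℕ} {ws : List (List ℕ)} (h : Valid mt l) (h' : Valid mt l') (hc : lall ls (fun i =>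
    lall ls' fun j => ws.any fun w => band (lsub w ls') (Nat.beq (mulf (lget l onem i) (lget l' onem j))
      (mulf (wm l' w) (lget l onem i)))) = true) : Mb (al l) ls ≤ N[Mb (al l') ls'] :=
  Mb.le fun i hi => Mb.norm fun j hj => by
    simp only [lall_iff, List.any_eq_true, band_eq, Bool.and_eq_true, Nat.beq_eq, ← mt_al h, ← mt_al h',
      ← mt_evl h', ← mt_mul, mt_inj.eq_iff] at hc
    obtain ⟨w, -, a, b⟩ := hc i hi j hj
    rw [b, mul_inv_cancel_right]
    exact Mb.ev' a

/-- data -/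
def t8 : T := (.node (.node (.node (.node .nil (nat_lit 0x800000400000200000100000080000040000020000010000008000004000002000001000000800000400000200000100000080000040000020000010000008000004000002000001) (nat_lit 0) (nat_lit 0) .nil) (nat_lit 0x883fe87c6dcc7a18312c65f54edaf37c9b775d3b2726ac2a05ac420747665f182319ff2900077e000b54000a390003860008b80005aa000c5a0005d00006cc000abb000abc000001) (nat_lit 17) (nat_lit 0x800000400000200000100000080000040000020000010000008000004000002000001000000800000400000200000100000080000040000020000010000008000004000002000001) .nil) (nat_lit 0x91e40a644e434e0cb80718e0051ad0034ff238ac99447763510e01074e13421c3c01d613000cad00066200070e0006a30009f10004e2000c5b00027d0006e30006ea0006c2000001) (nat_lit 34) (nat_lit 0x883fe87c6dcc7a18312c65f54edaf37c9b775d3b2726ac2a05ac420747665f182319ff2900077e000b54000a390003860008b80005aa000c5a0005d00006cc000abb000abc000001)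
 (.node .nil (nat_lit 0x99de2277b2cb4c28c814e32f4bf88d0444ee1807ff63db49738e437fd93462b4746f9e810003d30009360000490001e500040900010800000b0007bd00000d0006eb000c7c000001) (nat_lit 33) (nat_lit 0xd7383c6e5c601138cb0d0eaa0d2fac7bd0c662bfbf66fb5b54224378d54518085d53feb5000bc0000d75000367000874000d9900054a000c71000faf000c76000c54000c7d000001) .nil)) (nat_lit 0xc6d1e42e4cfa5abc037e4ffe46ea4f7b9b7c5f1b14238c38272c0078d3645d302913e4b0000f6d000f1700010400020500093a0001e8000c70000dc20006e7000005000abd000001) (nat_lit 16) (nat_lit 0x800000400000200000100000080000040000020000010000008000004000002000001000000800000400000200000100000080000040000020000010000008000004000002000001) (.node (.node .nil (nat_lit 0xceee0c12213600a432422a0b0030bc03000b0020330420122200427fd40202080a0a0b9900001300004300093d00008300010200040200000a000802000023000aba000003000001) (nat_lit 33) (nat_lit 0xc6d1e42e4cfa5abc037e4ffe46ea4f7b9b7c5f1b14238c38272c0078d3645d302913e4b0000f6d000f1700010400020500093a0001e8000c70000dc20006e7000005000abd000001)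 .nil) (nat_lit 0xd7383c6e5c601138cb0d0eaa0d2fac7bd0c662bfbf66fb5b54224378d54518085d53feb5000bc0000d75000367000874000d9900054a000c71000faf000c76000c54000c7d000001) (nat_lit 18) (nat_lit 0x800000400000200000100000080000040000020000010000008000004000002000001000000800000400000200000100000080000040000020000010000008000004000002000001)
 (.node .nil (nat_lit 0xdf02147da0e8131cbb1ef56543cdf17cdbda4214d941577176a20100426238a0153db6270004be000221000420000f320000610000a0000021000a6f000a98000c550006c3000001) (nat_lit 34) (nat_lit 0xc6d1e42e4cfa5abc037e4ffe46ea4f7b9b7c5f1b14238c38272c0078d3645d302913e4b0000f6d000f1700010400020500093a0001e8000c70000dc20006e7000005000abd000001) .nil)))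

/-- the centralizer of the alternating group of degree four -/
noncomputable def L0 : Subgroup Co1 := C1[xx 1] ⊓ C1[xx 2]
/-- the dihedral group -/
noncomputable def E8 : Subgroup Co1 := Mb (al cE) [5, 6, 7]
/-- the centralizer of `t0` -/
noncomputable def H0 : Subgroup Co1 := L0 ⊔ E8
/-- a Sylow subgroup of `L0` -/
noncomputable def U0 : Subgroup Co1 := Mb (al cE) [0, 1, 2, 3]
/-- a Sylow subgroup of `H0` -/
noncomputable def R0 : Subgroup Co1 := U0 ⊔ E8

theorem cen2 (h : Valid mt l) (hc : band (lall ls fun i => cmm (lget l onem i) (lget cB onem 5))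
    (lall ls fun i => cmm (lget l onem i) (lget cB onem 6)) = true) : Mb (al l) ls ≤ L0 := by
  rw [band_eq, Bool.and_eq_true] at hc
  exact le_inf (cen h (mt_xx 1) hc.1) (cen h (mt_xx 2) hc.2)

theorem L0_comm {x : Co1} (h : g ∈ L0) (hx : x ∈ Mb (al cB) [5, 6]) : Commute g x :=
  Mb.cent (ls := [5, 6]) (List.forall_mem_cons.2 ⟨mem_cent1.1 h.1, List.forall_mem_singleton.2 (mem_cent1.1 h.2)⟩) hx

theorem L0_t0 (h : g ∈ L0) : Commute g t0 := (show Commute g _ from mem_cent1.1 h.1).mul_right (mem_cent1.1 h.2)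
theorem L0_t1 (h : g ∈ L0) : Commute g t1 := (show Commute g _ from mem_cent1.1 h.2).mul_right (mem_cent1.1 h.1)

theorem E8_L0 : E8 ≤ N[L0] := by
  rw [show L0 = C[Mb (al cB) [5, 6]] from le_antisymm (fun g hg => mem_centralizer_iff.2 fun x hx =>
    (L0_comm hg hx).symm) fun g hg => ⟨mem_cent1.2 (hg _ (Mb.of (i := 5) (by decide))).symm,
      mem_cent1.2 (hg _ (Mb.of (i := 6) (by decide))).symm⟩]
  exact (nrm vcE vB (ws := [[5], [6], [5, 5], [6, 6], [6, 5, 5], [6, 6, 5], [5, 5, 6], [5, 6, 6]])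
    (by decide +kernel)).trans (norm_le_norm_cent _)

theorem E8_U0 : E8 ≤ N[U0] := nrm vcE vcE (ws := [[0], [1], [2], [3]]) (by decide +kernel)

theorem U0_L0 : U0 ≤ L0 := cen2 vcE (by decide +kernel)

theorem enE : Nat.card E8 = 8 ∧ ∀ g, g ∈ E8 ↔ mt g ∈ t8.keys := enumB vcE (by decide +kernel)

theorem enU : Nat.card U0 = 4096 ∧ ∀ g, g ∈ U0 ↔ mt g ∈ tU.keys := enumB vcE (by decide +kernel)

theorem L0_E8 : L0 ⊓ E8 = ⊥ := eq_bot_iff.2 fun g hg => by
  have := keys_all (f := fun k => bor (Nat.beq k onem) (!band (cmm k (lget cB onem 5)) (cmm k (lget cB onem 6))))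
    (by decide +kernel) ((enE.2 g).1 hg.2)
  rw [← mt_xx 1, ← mt_xx 2, cmm_iff.2 (mem_cent1.1 hg.1.1), cmm_iff.2 (mem_cent1.1 hg.1.2), ← mt_one] at this
  simpa [bor_eq, band_eq, mt_inj.eq_iff] using this

theorem card_R0 : Nat.card R0 = 2 ^ 15 := by
  rw [R0, card_sup_of_inf_eq_bot (Or.inr E8_U0) (eq_bot_iff.2 (L0_E8 ▸ inf_le_inf_right _ U0_L0)), enE.1, enU.1]; rfl

theorem mcE : Ma ix (al cE) (fc cE (List.range 19)) 19 (2 ^ 576) := mc vcE (by decide +kernel)

theorem cE_le : Mb (al cE) (List.range 19) ≤ C1[z0] := cen vcE mt_z0 (by decide +kernel)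

theorem exE : Nat.card (Mb (al cE) [0, 1, 2, 3, 4]) = 61440 ∧ Ex ix C1[z0] (Mb (al cE) [0, 1, 2, 3, 4]) kE [] :=
  have := ma_exact mcE cE_le (Ls := kE) (ma_lower (ma vcE 19) (Ls := kB) (by decide +kernel)) card_C0.le
    (by decide +kernel)
  ⟨this.1, this.2.1⟩

theorem exD0 : C1[z0] ⊓ C1[t0] = Mb (al cE) (List.range 8) ∧ Nat.card (Mb (al cE) (List.range 8)) = 491520 := by
  have k : ∀ R U, tQ.has R = true → mulf (mulf R (lget cE onem 5)) (mulf R (lget cE onem 5)) = U →
      ∃ r ∈ Q1, mt (r * t0 * (r * t0)) = U := fun R U a b =>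
    let ⟨r, c, d⟩ := CX.Q1_has a; ⟨r, c, by simp only [mt_mul, d, mt5, b]⟩
  obtain ⟨r, a, b⟩ := k (lget uv 0 3) (lget uv 0 0) (by decide +kernel) (by decide +kernel)
  obtain ⟨s, c, d⟩ := k (lget uv 0 4) (lget uv 0 1) (by decide +kernel) (by decide +kernel)
  have := mcE.sift exE.2 (C := C1[z0] ⊓ C1[t0]) (ls := List.range 8) (Ss := sE) (N := 491520)
    (pr := fun b q => bor (!lm [lget uv 0 0, lget uv 0 1, lget cE onem 5] b) (lm (lget cE onem 5 :: l8) q))
    (le_inf (le_inf (cen vcE mt_z0 (by decide +kernel)) (cen vcE mt5 (by decide +kernel)))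
      (cen vcE mt_z0 (by decide +kernel)))
    (hP_of (P := fun _ q => lm (lget cE onem 5 :: l8) q)
      (by simpa [Valid] using ⟨⟨_, b⟩, ⟨_, d⟩, _, mt5⟩) fun g hg y hy => by
      have e : g * t0 * g⁻¹ = t0 := commute_iff_conj.1 (mem_cent1.1 hg.2)
      have o : ∀ r ∈ Q1, lm (lget cE onem 5 :: l8) (mt (g * (r * t0 * (r * t0)) * g⁻¹)) = true := fun r hr => by
        have := Q1_all (f := fun R => force (mulf R (lget cE onem 5)) fun B => lm (lget cE onem 5 :: l8) (mulf B B))
          (by decide +kernel) (conj_mem_of_mem_norm (lt0.nQ hg.1) hr)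
        rw [force_eq, ← mt5, ← mt_mul, ← mt_mul] at this
        rwa [← mt5, show g * (r * t0 * (r * t0)) * g⁻¹ = g * r * g⁻¹ * (g * t0 * g⁻¹) * (g * r * g⁻¹ *
          (g * t0 * g⁻¹)) by group, e]
      simp only [← b, ← d, ← mt5, List.mem_cons, mt_inj.eq_iff, List.not_mem_nil, or_false] at hy
      rcases hy with rfl | rfl | rfl
      exacts [o r a, o s c, by rw [e, mt5]; exact lm_iff.2 List.mem_cons_self])
    inf_le_right le_rfl exE.1 (by decide +kernel)
  rwa [inf_eq_left.2 inf_le_left] at this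

end Cfsg.Agent.CW
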