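import Cfsg.Agent.CW.M1

/-! # The third class of involutions -/

set_option autoImplicit false
set_option maxRecDepth 100000
set_option Elab.async false

namespace Cfsg.Agent.CW

open Cfsg Cfsg.Spor Cfsg.Agent.GT Cfsg.Agent.TT Cfsg.Agent.TC Cfsg.Agent.XL Cfsg.Agent.M24 Cfsg.Agent.Leech
  Cfsg.Agent.CoS Subgroup MulAction

variable {g : Co1}

theorem R0_le : R0 ≤ C1[t0] ⊓ C1[z0] := by
  rw [inf_comm, exD0.1]
  exact sup_le (Mb.mono (by decide)) (Mb.mono (by decide))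

theorem sylD : IsPiHallOf {2} R0 (C1[t0] ⊓ C1[z0]) :=
  syl_card (b := 15) Nat.prime_two R0_le card_R0 (by rw [inf_comm, exD0.1, exD0.2]; rfl) (by decide)

theorem beq1 : Nat.beq (mt g) onem = true ↔ g = 1 := by rw [Nat.beq_eq, ← mt_one, mt_inj.eq_iff]

theorem beqm {x : Co1} : Nat.beq (mt g) (mt x) = true ↔ g = x := by rw [Nat.beq_eq, mt_inj.eq_iff]

set_option maxHeartbeats 0 in
theorem cenU (hg : g ∈ U0) (h : ∀ r ∈ R0, Commute g r) : g = 1 ∨ g = z0 := by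
  have := keys_all (f := fun k => bor (!lall [0, 1, 2, 3, 7] fun i => cmm k (lget cE onem i))
    (bor (Nat.beq k onem) (Nat.beq k mZ))) (by decide +kernel) ((enU.2 g).1 hg)
  simp only [bor_eq, Bool.or_eq_true, Bool.not_eq_true', ← Bool.not_eq_true, lall_iff, ← mt_al vcE, cmm_iff,
    beq1, ← mt_z0, beqm] at this
  exact this.resolve_left (not_not.2 fun i hi => h _
    ((by decide : ∀ i ∈ [0, 1, 2, 3, 7], i ∈ [0, 1, 2, 3] ∨ i ∈ [5, 6, 7]) i hi |>.elim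
      (fun a => mem_sup_left (Mb.of a)) fun a => mem_sup_right (Mb.of a)))

theorem pow4 (hg : g ∈ R0) : g ^ 4 ∈ U0 := by
  obtain ⟨u, a, e, b, rfl⟩ := (mem_sup_of_le_norm' E8_U0).1 hg
  have c := keys_all (f := fun k => force (mulf k k) fun y => Nat.beq (mulf y y) onem) (by decide +kernel)
    ((enE.2 e).1 b)
  rw [force_eq, Nat.beq_eq, ← mt_mul, ← mt_mul, ← mt_one, mt_inj.eq_iff] at c
  have n := fun {x : Co1} (h : x ∈ U0) => conj_mem_of_mem_norm (E8_U0 b) h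
  rw [show (u * e) ^ 4 = u * (e * (u * (e * (u * (e * u * e⁻¹)) * e⁻¹)) * e⁻¹) * (e * e * (e * e)) by
    simp only [pow_succ]; group, c, mul_one]
  exact mul_mem a (n (mul_mem a (n (mul_mem a (n a)))))

theorem ord_t0 : orderOf t0 = 2 := orderOf_eq_prime (mt_inj (by rw [sq, mt_mul, mt5, mt_one]; decide +kernel))
  (ne_of_mt (by rw [mt5, mt_one]; decide +kernel))

variable {G : Type*} [Group G] [Finite G] {K M : Subgroup (Co1 × G)} {z t y : G}

omit [Finite G] in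
theorem up_top {X : Type*} [Group X] {K : Subgroup (X × G)} {u : X × G} (h : KZ K u) : up K C1[u.1] = C1[u.2] :=
  le_antisymm (fun _ hx => let ⟨_, _, b⟩ := mem_up.1 hx; h.c2 b) fun x hx =>
    let ⟨c, b⟩ := h.snd x hx; mem_up.2 ⟨c, h.c1 b, b⟩

theorem syl_t (h : KZ K (z0, z)) (ht : (t0, t) ∈ K) : IsPiHallOf {2} (up K R0) C1[t] := by
  have b := KZ_bi h
  have e := b.cent (A := C1[z0]) ht
  rw [up_top h] at e
  have s := b.syl sylD inf_le_right
  have l := s.1.trans e.ge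
  refine syl_of_norm_le Nat.prime_two s (l.trans inf_le_left) fun n hn => e.le ⟨hn.1, ?_⟩
  have m : evl (al cE) r4 ∈ R0 := mem_sup_left (Mb.ev' (by decide +kernel))
  obtain ⟨ρ, hρ⟩ := b.fst _ (R0_le m).2
  have o : ρ ^ 4 = z := (b.eq (pow_mem hρ 4) h.mem).2 (mt_inj (by
    rw [Prod.pow_fst]; simp only [pow_succ, pow_zero, one_mul, mt_mul, mt_evl vcE, mt_z0]; decide +kernel))
  obtain ⟨r, a, c⟩ := mem_up.1 (conj_mem_of_mem_norm hn.2 ((b.mem hρ).2 m))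
  have d : (r ^ 4, n * z * n⁻¹) ∈ K := by simpa only [Prod.pow_mk, conj_pow, o] using pow_mem c 4
  rcases cenU (pow4 a) (fun x hx => by
    obtain ⟨σ, hσ⟩ := b.fst _ (R0_le hx).2
    refine (b.eq (mul_mem d hσ) (mul_mem hσ d)).1 ?_
    have := mem_cent1.1 (l (conj_mem_of_mem_norm (inv_mem hn.2) ((b.mem hσ).2 hx))).2
    rw [Prod.snd_mul, Prod.snd_mul, ← mul_inv_cancel_left n σ, ← inv_mul_cancel_right (n⁻¹ * σ) n⁻¹]
    generalize n⁻¹ * σ * n⁻¹⁻¹ = k at this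
    rw [show n * z * n⁻¹ * (n * (k * n⁻¹)) = n * (z * k) * n⁻¹ by group, ← this]
    group) with k | k
  · exact absurd ((b.one h.mem).1 (conj_eq_one_iff.1 ((b.one d).2 k))) lt0.ne
  · exact mem_cent1.2 (commute_iff_conj.2 ((b.eq d h.mem).2 k))

theorem nc_t (h : KZ K (z0, z)) (ht : (t0, t) ∈ K) (hy : 2 ^ 16 ∣ Nat.card C1[y]) : ¬ IsConj y t := fun e => by
  obtain ⟨g, rfl⟩ := isConj_iff.1 e
  have s := syl_t h ht
  rw [← card_conj g, conj_cent1, ← card_mul_relIndex s.1, (KZ_bi h).card (R0_le.trans inf_le_right), card_R0,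
    pow_succ] at hy
  exact syl_not_dvd Nat.prime_two s (Nat.dvd_of_mul_dvd_mul_left (by norm_num) hy)

theorem not_conj_zt (h : RH z0 s0 z K M) (ht : (t0, t) ∈ K) : ¬ IsConj z t :=
  nc_t h.kz ht (by rw [card_Cz h]; norm_num)

theorem not_conj_ct (h : RH z0 s0 z K M) (ht : (t0, t) ∈ K) (hy : (sg D0, y) ∈ K) : ¬ IsConj y t :=
  nc_t h.kz ht (Dvd.dvd.trans (by norm_num) (dvd_Cc h hy))

theorem three (h : RH z0 s0 z K M) (hc : ∀ y : G, y * y = 1 → y ≠ 1 → IsConj y z ∨ (∃ c, (sg D0, c) ∈ K ∧ IsConj y c) ∨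
    ∃ t, (t0, t) ∈ K ∧ IsConj y t) : ∃ a b c : G, orderOf a = 2 ∧ orderOf b = 2 ∧ orderOf c = 2 ∧ ¬ IsConj a b ∧
      ¬ IsConj a c ∧ ¬ IsConj b c ∧ ∀ x : G, orderOf x = 2 → IsConj x a ∨ IsConj x b ∨ IsConj x c := by
  obtain ⟨c, a⟩ := exA h (sg_mem D0_mem.1)
  obtain ⟨t, b⟩ := h.kz.fst t0 (cE_le (al5 ▸ Mb.of (by decide)))
  refine ⟨z, c, t, (h.kz.ord h.kz.mem).trans (orderOf_eq_prime ((sq _).trans lt0.zz) lt0.ne),
    (h.kz.ord a).trans (orderOf_eq_prime ((sq _).trans (A0_sq (sg_mem D0_mem.1))) sgD_ne), (h.kz.ord b).trans ord_t0,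
    not_conj_zc h a, not_conj_zt h b, not_conj_ct h b a, fun x hx => (hc x (by rw [← sq, ← hx, pow_orderOf_eq_one])
      fun e => by simp [e] at hx).imp_right (Or.imp (fun ⟨_, d, e⟩ => ?_) fun ⟨_, d, e⟩ => ?_)⟩
  exacts [(show _ = c from congrArg Prod.snd (h.kz.gr.ext d a rfl)) ▸ e,
    (show _ = t from congrArg Prod.snd (h.kz.gr.ext d b rfl)) ▸ e]

end Cfsg.Agent.CW
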