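import Cfsg.Agent.CW.M2
import Cfsg.Agent.CW.D4
import Cfsg.Agent.CW.D5

/-! # The centralizer of the alternating group of degree four -/

set_option autoImplicit false
set_option maxRecDepth 100000
set_option Elab.async false
set_option maxHeartbeats 0

namespace Cfsg.Agent.CW

open Cfsg Cfsg.Spor Cfsg.Agent.GT Cfsg.Agent.TT Cfsg.Agent.TC Cfsg.Agent.XL Cfsg.Agent.M24 Cfsg.Agent.Leech
  Cfsg.Agent.CoS Subgroup MulAction

variable {g : Co1}

/-- the group `L₂(7)` -/
noncomputable def L7 : Subgroup Co1 := Mb (al cF) [6, 7, 8]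

theorem enL : Nat.card L7 = 168 ∧ ∀ g, g ∈ L7 ↔ mt g ∈ tL.keys := enumB vcF (by decide +kernel)

theorem exF : Ex ix L0 L7 kF [] ∧ L0 = Mb (al cF) (List.range 9) ∧ Nat.card L0 = 251596800 :=
  (ma_exact (mc vcF (iv := List.range 9) (k := 9) (by decide +kernel)) (cen2 vcF (by decide +kernel)) enL.1.ge (by
    rw [L0, inf_comm]
    exact card_conj_le vcX (ls := [0, 1, 2]) (n := 5346) (ps := psX) (t := tX) (mt_xx 2)
      (cen vcX (mt_xx 1) (by decide +kernel)) card_x1.le (by decide +kernel)) (by decide +kernel)).2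

theorem sylU : IsPiHallOf {2} U0 L0 := syl_card (a := 12) (b := 61425) Nat.prime_two U0_L0 enU.1 exF.2.2 (by decide)

theorem card_H0 : Nat.card H0 = 251596800 * 8 := by
  rw [H0, card_sup_of_inf_eq_bot (Or.inr E8_L0) L0_E8, enE.1, exF.2.2]

theorem sylR : IsPiHallOf {2} R0 H0 :=
  syl_card (b := 61425) Nat.prime_two (sup_le_sup_right U0_L0 _) card_R0 card_H0 (by decide)

theorem clT {t : T} {x : Co1} {X : ℕ} (hx : mt x = X) (hc : connChk (cn cF) psZ X t = true)
    (h : t.has (mt g) = true) : ∃ l ∈ L0, g = l * x * l⁻¹ :=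
  let ⟨l, a, b⟩ := cn_conn vcF (ls := List.range 9) (by decide +kernel) (hx.symm ▸ hc) _ (T.has_sound h)
  ⟨l, exF.2.1.ge a, (mt_inj b).symm⟩

/-- the matrix of `uu` -/
def mUU : ℕ := nat_lit
  0x34f39e6e5eb0f2e79c0bac1a7081bfe5a5962b2ebed062cae0eb982b21d25cecf36e54c327c42027c68e1a642e4252da1a629a27caa5000aba27c80a7db44f00000a7db44b000c50

theorem mtU : mt uu = mUU := by simp only [uu, mt_mul, mt_xx]; decide +kernel

theorem clZ (h : tZ.has (mt g) = true) : ∃ l ∈ L0, g = l * z0 * l⁻¹ := clT mt_z0 (by decide +kernel) h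
theorem clU (h : tUU.has (mt g) = true) : ∃ l ∈ L0, g = l * uu * l⁻¹ := clT mtU (by decide +kernel) h
theorem clO (h : tO.has (mt g) = true) : ∃ l ∈ L0, g = l * oo * l⁻¹ := clT mt7 (by decide +kernel) h

end Cfsg.Agent.CW
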