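import Cfsg.Agent.CW.M3
import Cfsg.Agent.CW.Cls
import Cfsg.Agent.CW.D6

/-! # Involutions in the centralizer of `t0` -/

set_option autoImplicit false
set_option maxRecDepth 100000
set_option Elab.async false
set_option maxHeartbeats 0

namespace Cfsg.Agent.CW

open Cfsg Cfsg.Spor Cfsg.Agent.GT Cfsg.Agent.TT Cfsg.Agent.TC Cfsg.Agent.XL Cfsg.Agent.M24 Cfsg.Agent.Leech
  Cfsg.Agent.CoS Subgroup MulAction
open scoped commutatorElement

variable {g : Co1}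

theorem comm_sup {X : Type*} [Group X] {L D : Subgroup X} (h : D ≤ N[L]) : ⁅L ⊔ D, L ⊔ D⁆ ≤ L ⊔ ⁅D, D⁆ :=
  commutator_le.2 fun x hx y hy => by
    obtain ⟨l, a, d, b, rfl⟩ := (mem_sup_of_le_norm' h).1 hx
    obtain ⟨m, c, e, o, rfl⟩ := (mem_sup_of_le_norm' h).1 hy
    have k := commutator_mem_commutator b o
    rw [show ⁅l * d, m * e⁆ = l * (d * m * d⁻¹) * (d * e * d⁻¹ * l⁻¹ * (d * e * d⁻¹)⁻¹) * (⁅d, e⁆ * m⁻¹ * ⁅d, e⁆⁻¹) *
      ⁅d, e⁆ by simp only [commutatorElement_def]; group]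
    exact mul_mem (mem_sup_left (mul_mem (mul_mem (mul_mem a (conj_mem_of_mem_norm (h b) c)) (conj_mem_of_mem_norm
      (h (mul_mem (mul_mem b o) (inv_mem b))) (inv_mem a))) (conj_mem_of_mem_norm (h (der1_le _ k)) (inv_mem c))))
      (mem_sup_right k)

theorem comm_of {X : Type*} [Group X] {L : Subgroup X} {a b x : X} (ha : a ∈ L) (hb : b ∈ L) (e : a * b = x * b * a) :
    x ∈ ⁅L, L⁆ := by
  have := commutator_mem_commutator ha hb
  rwa [commutatorElement_def, e, mul_inv_cancel_right, mul_inv_cancel_right] at this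

theorem sq1 : Nat.beq (mulf (mt g) (mt g)) onem = true ↔ g * g = 1 := by rw [← mt_mul, beq1]

theorem chkU (hg : g ∈ U0) : (g * g = 1 → g = 1 ∨ tZ.has (mt g) = true ∨ tUU.has (mt g) = true) ∧
    (g * oo * (g * oo) = 1 → tO.has (mt (g * oo)) = true) := by
  have := keys_all (f := fun k => band (bor (!Nat.beq (mulf k k) onem) (bor (Nat.beq k onem) (bor (tZ.has k)
    (tUU.has k)))) (force (mulf k (lget cE onem 7)) fun y => bor (!Nat.beq (mulf y y) onem) (tO.has y)))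
    (by decide +kernel) ((enU.2 g).1 hg)
  simp only [force_eq, ← mt7, band_eq, bor_eq, Bool.and_eq_true, Bool.or_eq_true, Bool.not_eq_true',
    ← Bool.not_eq_true, ← mt_mul, beq1] at this
  exact ⟨fun a => this.1.resolve_left (not_not.2 a), fun a => this.2.resolve_left (not_not.2 a)⟩

theorem clsL : ∀ x ∈ L0, x * x = 1 → x ≠ 1 → ∃ l ∈ L0, x = l * z0 * l⁻¹ ∨ x = l * uu * l⁻¹ :=
  cls_of_syl sylU (fun g hg x ⟨l, a, b⟩ => ⟨g⁻¹ * l, mul_mem (inv_mem hg) a, b.imp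
    (fun e => by rw [mul_assoc g⁻¹, mul_inv_rev, ← mul_assoc, mul_assoc g⁻¹, ← e]; group)
    fun e => by rw [mul_assoc g⁻¹, mul_inv_rev, ← mul_assoc, mul_assoc g⁻¹, ← e]; group⟩) fun x hx a b =>
    (((chkU hx).1 a).resolve_left b).elim (fun c => let ⟨l, d, e⟩ := clZ c; ⟨l, d, Or.inl e⟩)
      fun c => let ⟨l, d, e⟩ := clU c; ⟨l, d, Or.inr e⟩

theorem cS_L0 : Mb (al cS) (List.range 21) ≤ L0 := cen2 vcS (by decide +kernel)

theorem alS4 : al cS 4 = uu := mt_inj (by rw [mt_al vcS, mtU]; decide +kernel)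
theorem alS14 : al cS 14 = z0 := mt_inj (by rw [mt_al vcS, mt_z0]; decide +kernel)
theorem uu_L0 : uu ∈ L0 := alS4 ▸ cS_L0 (Mb.of (by decide))
theorem z0_L0 : z0 ∈ L0 := alS14 ▸ cS_L0 (Mb.of (by decide))

theorem perfL : L0 ≤ ⁅L0, L0⁆ := by
  have a : z0 ∈ ⁅L0, L0⁆ := comm_of (U0_L0 (Mb.ev' (w := [0]) (by decide +kernel)))
    (U0_L0 (Mb.ev' (w := [2, 1, 2]) (by decide +kernel)))
    (mt_inj (by simp only [mt_mul, mt_evl vcE, mt_z0]; decide +kernel))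
  have b : uu ∈ ⁅L0, L0⁆ := comm_of (cS_L0 (Mb.ev' (w := [2]) (by decide +kernel)))
    (cS_L0 (Mb.ev' (w := [3, 4, 2]) (by decide +kernel)))
    (mt_inj (by simp only [mt_mul, mt_evl vcS, mtU]; decide +kernel))
  refine exF.2.1.le.trans (Mb.le fun i hi => ?_)
  have c : Nat.beq (mulf (lget cF onem i) (lget cF onem i)) onem = true ∧ ¬ Nat.beq (lget cF onem i) onem = true := by
    revert i; decide +kernel
  rw [← mt_al vcF, sq1, beq1] at c
  obtain ⟨l, d, e | e⟩ := clsL _ (exF.2.1.ge (Mb.of hi)) c.1 c.2 <;> rw [e]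
  exacts [conj_mem_of_mem_norm (self_le_norm_der1 _ d) a, conj_mem_of_mem_norm (self_le_norm_der1 _ d) b]

theorem der2 : ⁅⁅H0, H0⁆, ⁅H0, H0⁆⁆ ≤ L0 := by
  have a : ⁅H0, H0⁆ ≤ L0 ⊔ Mb (al cE) [5] := (comm_sup E8_L0).trans (sup_le_sup_left
    ((md vcE 8).comm_le (ws := [[], [5]]) (nrm vcE vcE (ws := [[5]]) (by decide +kernel)) (by decide +kernel)) _)
  exact (commutator_mono a a).trans ((comm_sup ((Mb.mono (by decide)).trans E8_L0)).trans (sup_le le_rfl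
    (((md vcE 8).comm_le (ls0 := []) (ws := [[]]) (nrm vcE vcE (ws := []) (by decide +kernel))
      (by decide +kernel)).trans (Mb.le (by simp)))))

theorem idxL : L0.relIndex H0 = 2 ^ 3 := by
  have := card_mul_relIndex (H := L0) (K := H0) le_sup_left
  rw [card_H0, exF.2.2] at this
  omega

theorem H0_le : H0 ≤ C1[t0] :=
  sup_le (fun _ hg => mem_cent1.2 (L0_t0 hg)) (le_sup_right.trans (R0_le.trans inf_le_left))

/-- involutions which are visibly not central -/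
def Bad (r : Co1) : Prop := Commute r t0 ∧ ∃ k ∈ C1[z0], r = k * t0 * k⁻¹ ∨ r = k * (t0 * uu) * k⁻¹

theorem bad_w {w : List ℕ} {X : ℕ} (hg : mt g = X) (hc : band (band (lsub w [5, 6, 7, 8, 9, 10, 11])
    (cmm X (lget cE onem 5))) (Nat.beq (mulf X (wm cB w)) (mulf (wm cB w) (lget cE onem 5))) = true) : Bad g := by
  simp only [band_eq, Bool.and_eq_true, ← hg, ← mt5, ← mt_evl vB, ← mt_mul, beqm, cmm_iff] at hc
  exact ⟨hc.1.2, _, A9_le (Mb.ev' hc.1.1), Or.inl (eq_mul_inv_iff_mul_eq.2 hc.2)⟩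

theorem bad_V {a r : Co1} (ha : a ∈ Mb (al cB) [5, 6]) (c : Commute (a * t0 * a⁻¹) t0) (hr : r = 1 ∨ r = z0 ∨ r = uu) :
    Bad (r * (a * t0 * a⁻¹)) := by
  have l : r ∈ L0 := by rcases hr with rfl | rfl | rfl; exacts [one_mem _, z0_L0, uu_L0]
  have hz := A9_le (Mb.mono (by decide) ha)
  refine ⟨(L0_t0 l).mul_left c, ?_⟩
  rw [← mul_assoc, ← mul_assoc, (L0_comm l ha).eq, mul_assoc a]
  rcases hr with rfl | rfl | rfl
  · exact ⟨a, hz, Or.inl (by rw [one_mul])⟩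
  · obtain ⟨u, b, d⟩ := CX.Q1_has (s := lget uv 0 0) (by decide +kernel)
    refine ⟨a * u, mul_mem hz (mem_cent1.2 (lt0.zc _ b).symm), Or.inl ?_⟩
    rw [show z0 * t0 = u * t0 * u⁻¹ from eq_mul_inv_iff_mul_eq.2 (mt_inj (by
      simp only [mt_mul, d, mt5, mt_z0]; decide +kernel))]
    group
  · exact ⟨a, hz, Or.inr (by rw [(L0_t0 l).eq])⟩

theorem clsH : ∀ x ∈ H0, x * x = 1 → x ≠ 1 → ∃ h ∈ H0, ∃ r, x = h * r * h⁻¹ ∧ (r = z0 ∨ Bad r) := by
  refine cls_of_syl sylR (fun g hg x ⟨l, a, r, b, c⟩ => ⟨g⁻¹ * l, mul_mem (inv_mem hg) a, r, by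
    rw [mul_assoc g⁻¹, mul_inv_rev, ← mul_assoc, mul_assoc g⁻¹, ← b]; group, c⟩) fun x hx x2 x1 => ?_
  obtain ⟨u, a, e, b, rfl⟩ := (mem_sup_of_le_norm' E8_U0).1 hx
  have et : Commute e t0 := mem_cent1.1 (H0_le (mem_sup_right b))
  have ee : e * e = 1 := mem_bot.1 (L0_E8 ▸ mem_inf.2 ⟨by
    rw [show e * e = (u * (e * u * e⁻¹))⁻¹ * (u * e * (u * e)) by group, x2, mul_one]
    exact inv_mem (U0_L0 (mul_mem a (conj_mem_of_mem_norm (E8_U0 b) a))), mul_mem b b⟩)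
  have := keys_all (f := fun k => bor (!Nat.beq (mulf k k) onem) (bor (Nat.beq k onem) (bor ([[], [5], [5, 5]].any
    fun w => band (lsub w [5, 6]) (Nat.beq (mulf k (wm cB w)) (mulf (wm cB w) (lget cE onem 5))))
    (bor (Nat.beq k (lget cE onem 7)) (Nat.beq k (mulf (lget cE onem 7) (lget cE onem 5)))))))
    (by decide +kernel) ((enE.2 e).1 b)
  simp only [← mt5, ← mt7, band_eq, bor_eq, Bool.and_eq_true, Bool.or_eq_true, Bool.not_eq_true', List.any_eq_true,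
    ← Bool.not_eq_true, ← mt_evl vB, ← mt_mul, beq1, beqm, ee, not_true, false_or] at this
  rcases this with rfl | ⟨w, -, c, d⟩ | rfl | rfl
  · rw [mul_one] at x2 x1 ⊢
    obtain ⟨l, c, d | d⟩ := clsL u (U0_L0 a) x2 x1
    exacts [⟨l, mem_sup_left c, _, d, Or.inl rfl⟩, ⟨l, mem_sup_left c, _, d,
      Or.inr (bad_w (w := [8, 10, 5, 6, 11, 9]) mtU (by decide +kernel))⟩]
  · have hw := Mb.ev' (u := al cB) c
    generalize evl (al cB) w = k at d hw
    obtain rfl := eq_mul_inv_iff_mul_eq.2 d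
    have hf : k * t0 * k⁻¹ ∈ Mb (al cB) [5, 6] := mul_mem (mul_mem hw (mul_mem (Mb.of (i := 5) (by decide))
      (Mb.of (i := 6) (by decide)))) (inv_mem hw)
    by_cases o : u = 1
    · exact ⟨1, one_mem _, _, by rw [o]; simp, Or.inr (bad_V hw et (Or.inl rfl))⟩
    rw [(L0_comm (U0_L0 a) hf).symm.mul_mul_mul_comm, ee, mul_one] at x2
    obtain ⟨l, c, d⟩ := clsL u (U0_L0 a) x2 o
    have k : ∀ r, l * r * l⁻¹ * (k * t0 * k⁻¹) = l * (r * (k * t0 * k⁻¹)) * l⁻¹ := fun r => by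
      rw [mul_assoc (l * r), (L0_comm (inv_mem c) hf).eq]; group
    rcases d with rfl | rfl
    exacts [⟨l, mem_sup_left c, _, k _, Or.inr (bad_V hw et (Or.inr (Or.inl rfl)))⟩,
      ⟨l, mem_sup_left c, _, k _, Or.inr (bad_V hw et (Or.inr (Or.inr rfl)))⟩]
  · obtain ⟨l, c, d⟩ := clO ((chkU a).2 x2)
    exact ⟨l, mem_sup_left c, _, d, Or.inr (bad_w (w := [5, 8, 9, 6]) mt7 (by decide +kernel))⟩
  · have tt : t0 * t0 = 1 := by rw [← sq, ← ord_t0, pow_orderOf_eq_one]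
    have ot : Commute (u * oo) t0 := mem_cent1.1 (H0_le (mul_mem (mem_sup_left (U0_L0 a))
      (mem_sup_right (al7 ▸ Mb.of (by decide)))))
    rw [← mul_assoc u, ot.symm.mul_mul_mul_comm, tt, mul_one] at x2
    obtain ⟨l, c, d⟩ := clO ((chkU a).2 x2)
    refine ⟨l, mem_sup_left c, _, ?_, Or.inr (bad_w (w := [8, 6, 5, 9]) (mt_mul oo t0) (by
      rw [mt5, mt7]; decide +kernel))⟩
    rw [← mul_assoc u, d, mul_assoc (l * oo), (L0_t0 (inv_mem c)).eq]; group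

end Cfsg.Agent.CW
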