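import Cfsg.Agent.CW.M4
import Cfsg.Agent.CW.D7

/-! # Centralizers inside `G₂(4)` -/

set_option autoImplicit false
set_option maxRecDepth 100000
set_option Elab.async false
set_option maxHeartbeats 0

namespace Cfsg.Agent.CW

open Cfsg Cfsg.Spor Cfsg.Agent.GT Cfsg.Agent.TT Cfsg.Agent.TC Cfsg.Agent.XL Cfsg.Agent.M24 Cfsg.Agent.Leech
  Cfsg.Agent.CoS Subgroup MulAction

variable {g : Co1}

theorem Mb_app {D : Type*} [Group D] (u : ℕ → D) (a b : List ℕ) : Mb u (a ++ b) = Mb u a ⊔ Mb u b :=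
  le_antisymm (Mb.le fun _ hi => (List.mem_append.1 hi).elim (fun h => mem_sup_left (Mb.of h))
    fun h => mem_sup_right (Mb.of h))
    (sup_le (Mb.mono fun _ => List.mem_append_left _) (Mb.mono fun _ => List.mem_append_right _))

theorem mcS : Ma ix (al cS) (fc cS ivS) 21 (2 ^ 576) := mc vcS (by decide +kernel)

theorem vX : Valid mt [lget cB onem 7, lget cB onem 8, lget cB onem 9] := by
  simpa [Valid] using ⟨⟨_, mt_xx 3⟩, ⟨_, mt_xx 4⟩, _, mt_xx 5⟩

theorem L7_eq : L0 ⊓ (C1[xx 3] ⊓ C1[xx 4] ⊓ C1[xx 5]) = L7 := by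
  rw [← exF.1.last, show (kF.map Lvl.b).reverse ++ [] = [mt (xx 5), mt (xx 4), mt (xx 3)] by
    simp only [mt_xx]; decide +kernel, fxs_ix, fxs_ix, fxs_ix, fxs_nil, top_inf_eq]

theorem en6 : Nat.card (Mb (al cS) [14, 15]) = 6 ∧ ∀ g, g ∈ Mb (al cS) [14, 15] ↔ mt g ∈ t6.keys :=
  enumB vcS (by decide +kernel)

theorem sub_of {l ls : List ℕ} {t t' : T} {f : ℕ → Bool} (e : ∀ g, g ∈ Mb (al l) ls ↔ mt g ∈ t'.keys)
    (hc : (t.all fun k _ _ => bor (!f k) (t'.has k)) = true) (hg : mt g ∈ t.keys) (hf : f (mt g) = true) :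
    g ∈ Mb (al l) ls := by
  have := keys_all hc hg
  rw [hf] at this
  exact (e g).2 (T.has_sound this)

theorem exU : C1[uu] ⊓ L0 = Mb (al cS) [13, 14, 15, 16, 4, 12] ∧ Nat.card (Mb (al cS) [13, 14, 15, 16, 4, 12]) = 3840 := by
  have e : fxs Co1 ix [lget cB onem 8, lget cB onem 7] = C1[xx 3] ⊓ C1[xx 4] := by
    rw [← mt_xx 3, ← mt_xx 4, fxs_ix, fxs_ix, fxs_nil, top_inf_eq]
  have uu2 : uu * uu = 1 := sq1.1 (by rw [mtU]; decide +kernel)
  refine mcS.sift (Ls := kF.take 2) (F := L0 ⊓ (C1[xx 3] ⊓ C1[xx 4])) (Ss := sU) (ls0 := [14, 15])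
    ⟨exF.1.1, exF.1.2.1, e ▸ rfl⟩ (le_inf (cen vcS mtU (by decide +kernel)) ((Mb.mono (by decide)).trans cS_L0))
    (pr := fun b q => bor (!lm [lget cB onem 7, lget cB onem 8] b) (bif' (Nat.beq b (lget cB onem 7)) (cmm q mUU)
      (force (mulf q mUU) fun y => force (mulf y y) fun y => Nat.beq (mulf y y) onem)))
    (hP_of (P := fun b q => bif' (Nat.beq b (lget cB onem 7)) (cmm q mUU)
      (force (mulf q mUU) fun y => force (mulf y y) fun y => Nat.beq (mulf y y) onem))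
      (fun s hs => vX s (by simp at hs ⊢; tauto)) fun g hg y hy => ?_) (fun g hg => ?_)
    (le_inf ((Mb.mono (by decide)).trans cS_L0) (le_inf (cen vcS (mt_xx 3) (by decide +kernel))
      (cen vcS (mt_xx 4) (by decide +kernel)))) en6.1 (by decide +kernel)
  · have o : g * uu * g⁻¹ = uu := commute_iff_conj.1 (mem_cent1.1 hg)
    simp only [← mt_xx 3, ← mt_xx 4, List.mem_cons, mt_inj.eq_iff, List.not_mem_nil, or_false] at hy
    rw [bif'_eq, force_eq, force_eq, ← mtU, ← mt_mul, ← mt_mul, ← mt_xx 3]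
    split_ifs with c <;> rw [beqm] at c
    · rw [cmm_iff, ← o, c]
      exact (cmm_iff.1 (by rw [mt_xx, mtU]; decide +kernel) : Commute (xx 3) uu).map (MulAut.conj g)
    · rw [sq1, hy.resolve_left c, ← o, conj_mul, conj_mul, conj_mul, conj_eq_one_iff, ← sq1]
      simp only [mt_mul, mt_xx, mtU]; decide +kernel
  · refine sub_of (f := fun k => cmm k mUU) en6.2 (by decide +kernel) ((enL.2 g).1 (L7_eq.le ⟨hg.2.1, hg.2.2, ?_⟩))
      (mtU ▸ cmm_iff.2 (mem_cent1.1 hg.1))
    rw [show xx 5 = uu * xx 4 * uu from mt_inj (by simp only [mt_mul, mt_xx, mtU]; decide +kernel)]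
    exact mem_cent1.2 (((show Commute g uu from mem_cent1.1 hg.1).mul_right (mem_cent1.1 hg.2.2.2)).mul_right
      (mem_cent1.1 hg.1))

theorem enE1 : Nat.card (Mb (al cS) [13, 14, 15, 16]) = 960 ∧ ∀ g, g ∈ Mb (al cS) [13, 14, 15, 16] ↔ mt g ∈ tE.keys :=
  enumB vcS (by decide +kernel)

theorem ts0 : TS L0 (Mb (al cS) ls1) (Mb (al cS) [13, 14, 15, 16]) z0 uu (al cS 13) z0 := by
  have c := exU.2
  rw [← exU.1] at c
  have l : Mb (al cS) [13, 14, 15, 16] ≤ C1[uu] ⊓ L0 := exU.1 ▸ Mb.mono (by decide)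
  have k : ∀ g ∈ Mb (al cS) [13, 14, 15, 16], (g * g = 1 → g = 1 ∨ tZ.has (mt g) = true ∨ tZ.has (mt (g * uu)) = true) ∧
      ¬ z0 * g = g * al cS 13 := fun g hg => by
    have := keys_all (f := fun k => band (bor (!Nat.beq (mulf k k) onem) (bor (Nat.beq k onem) (bor (tZ.has k)
      (force (mulf k mUU) tZ.has)))) (!Nat.beq (mulf mZ k) (mulf k (lget cS onem 13))))
      (by decide +kernel) ((enE1.2 g).1 hg)
    simp only [force_eq, ← mtU, ← mt_z0, ← mt_al vcS, band_eq, bor_eq, Bool.and_eq_true, Bool.or_eq_true,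
      Bool.not_eq_true', ← Bool.not_eq_true, ← mt_mul, beq1, beqm] at this
    exact ⟨fun a => this.1.resolve_left (not_not.2 a), this.2⟩
  refine ⟨clsL, uu_L0, sq1.1 (by rw [mtU]; decide +kernel), ne_of_mt (by rw [mtU, mt_one]; decide +kernel),
    fun l hl e => ?_, clZ (by rw [mt_al vcS]; decide +kernel), syl_card (a := 8) (b := 15) Nat.prime_two
      (le_inf (cen vcS mtU (by decide +kernel)) ((Mb.mono (by decide)).trans cS_L0))
      (enumB vcS (t := tS1) (n := 256) (by decide +kernel)).1 c (by decide), Mb.of (by decide),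
    cen vcS (mt_al vcS 13) (by decide +kernel), le_antisymm ?_ (((md vcS 21).perf
      (a := fun i => lget pfa 0 (i - 13)) (b := fun i => lget pfb 0 (i - 13)) (by decide +kernel)).trans
      (commutator_mono l l)), Mb.of (by decide), ⟨2, ?_⟩, fun x hx a b => ?_, alS14 ▸ Mb.of (by decide), lt0.zz, lt0.ne,
    fun e he o => (k e he).2 (eq_mul_inv_iff_mul_eq.1 o)⟩
  · have := card_le_of_le (le_inf (le_sup_left.trans (R0_le.trans inf_le_right)) U0_L0 : U0 ≤ C1[z0] ⊓ L0)
    rw [← card_cent_conj (le_normalizer hl), ← e, c, enU.1] at this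
    omega
  · rw [exU.1, show [13, 14, 15, 16, 4, 12] = [13, 14, 15, 16] ++ [4, 12] from rfl, Mb_app]
    exact (comm_sup (nrm vcS vcS (ws := [[13], [14], [15], [16]]) (by decide +kernel))).trans (sup_le le_rfl
      (((md vcS 21).comm_le (ls0 := []) (ws := [[]]) (nrm vcS vcS (ws := []) (by decide +kernel))
        (by decide +kernel)).trans (Mb.le (by simp))))
  · have := card_mul_relIndex l
    rw [c, enE1.1] at this
    omega
  · exact (((k x hx).1 a).resolve_left b).elim (fun c => let ⟨l, d, e⟩ := clZ c; ⟨l, d, Or.inl e⟩)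
      fun c => let ⟨l, d, e⟩ := clZ c; ⟨l, d, Or.inr e⟩

/-! ### The elements of order three and seven -/

theorem alS0 : al cS 0 = w0 := mt_inj (by rw [w0, mt_al vcS, mt_al vB]; decide +kernel)
theorem alS6 : al cS 6 = v0 := mt_inj (by rw [v0, mt_al vcS, mt_al vB]; decide +kernel)

theorem hPX {C : Subgroup Co1} {a : Co1} {A : ℕ} (hA : mt a = A) (hc : lall [lget cB onem 7, lget cB onem 8,
    lget cB onem 9] (fun k => cmm k A) = true) (h : ∀ g ∈ C, ∀ y, Commute y a → Commute (g * y * g⁻¹) a) :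
    ∀ g ∈ C, ∀ x : Mx, bor (!lm [lget cB onem 7, lget cB onem 8, lget cB onem 9] (ix x)) (cmm (ix (g • x)) A) = true :=
  hP_of (P := fun _ q => cmm q A) vX fun g hg y hy => by
    rw [← hA, cmm_iff]
    exact h g hg y (cmm_iff.1 (hA ▸ (lall_iff _ _).1 hc _ hy))

theorem mem_w {l l' w ls : List ℕ} {i : ℕ} (h : Valid mt l) (h' : Valid mt l')
    (hc : band (lsub w ls) (Nat.beq (lget l onem i) (wm l' w)) = true) : al l i ∈ Mb (al l') ls := by
  rw [band_eq, Bool.and_eq_true, ← mt_al h, ← mt_evl h', beqm] at hc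
  exact hc.2 ▸ Mb.ev' hc.1

theorem Mb_one {D : Type*} [Group D] (u : ℕ → D) (i : ℕ) : Mb u [i] ≤ zpowers (u i) :=
  Mb.le (List.forall_mem_singleton.2 (mem_zpowers _))

theorem E8_A7 : E8 ≤ A7 := Mb.le (by
  simp only [List.forall_mem_cons, List.not_mem_nil, false_imp_iff, implies_true, and_true]
  exact ⟨mem_w vcE vB (w := [6, 5]) (by decide +kernel), mem_w vcE vB (w := [5, 6]) (by decide +kernel),
    mem_w vcE vB (w := [8, 5, 9, 8, 8]) (by decide +kernel)⟩)

theorem A7_A9 : A7 ≤ A9 := Mb.mono (by decide)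
theorem A9_w : A9 ≤ C1[w0] := cen vB (mt_al vB 13) (by decide +kernel)
theorem A7_v : A7 ≤ C1[v0] := cen vB (mt_al vB 12) (by decide +kernel)

theorem H0_inf {a : Co1} {S : Subgroup Co1} (h1 : E8 ≤ C1[a]) (h2 : E8 ≤ S) (h : C1[a] ⊓ L0 ≤ S) : H0 ⊓ C1[a] ≤ S := by
  rintro _ ⟨a, b⟩
  obtain ⟨l, c, e, d, rfl⟩ := (mem_sup_of_le_norm' E8_L0).1 a
  exact mul_mem (h ⟨(mul_mem_cancel_right (h1 d)).1 b, c⟩) (h2 d)

theorem cenW : H0 ⊓ C1[w0] ≤ zpowers w0 ⊔ A9 := by
  have w : mt w0 = lget cS onem 0 := alS0 ▸ mt_al vcS 0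
  have e := enumB vcS (ls := [0]) (t := t3) (n := 3) (by decide +kernel)
  refine H0_inf (E8_A7.trans (A7_A9.trans A9_w)) (E8_A7.trans (A7_A9.trans le_sup_right)) ((mcS.sift exF.1
    (ls := [0, 2, 4, 5]) (Ss := sW) (N := 180) (le_inf (cen vcS w (by decide +kernel))
      ((Mb.mono (by decide)).trans cS_L0))
    (pr := fun b q => bor (!lm [lget cB onem 7, lget cB onem 8, lget cB onem 9] b) (cmm q (lget cS onem 0)))
    (hPX w (by decide +kernel) fun g hg y c => ?_) (fun g hg => sub_of (f := fun k => cmm k (lget cS onem 0)) e.2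
      (by decide +kernel) ((enL.2 g).1 hg.2) (w ▸ cmm_iff.2 (mem_cent1.1 hg.1)))
    (Mb.le (List.forall_mem_singleton.2 ((enL.2 _).2 (T.has_sound (by rw [mt_al vcS]; decide +kernel))))) e.1
    (by decide +kernel)).1.le.trans (Mb.le ?_))
  · have : Commute g w0 := mem_cent1.1 hg
    exact (this.mul_left c).mul_left this.inv_left
  · simp only [List.forall_mem_cons, List.not_mem_nil, false_imp_iff, implies_true, and_true]
    exact ⟨mem_sup_left (alS0 ▸ mem_zpowers _),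
      mem_sup_right (mem_w vcS vB (w := [9, 11, 10, 9, 11]) (by decide +kernel)),
      mem_sup_right (mem_w vcS vB (w := [8, 10, 9, 11, 8, 10]) (by decide +kernel)),
      mem_sup_right (mem_w vcS vB (w := [7, 9, 8, 10, 7, 9]) (by decide +kernel))⟩

theorem cenV : H0 ⊓ C1[v0] ≤ zpowers v0 ⊔ A7 := by
  have v : mt v0 = lget cS onem 6 := alS6 ▸ mt_al vcS 6
  have e := enumB vcS (ls := [6, 8]) (t := t21) (n := 21) (by decide +kernel)
  have e7 := enumB vcS (ls := [6]) (t := t7) (n := 7) (by decide +kernel)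
  have m : v0 ∈ Mb (al cS) [6] := alS6 ▸ Mb.of (by decide)
  have := (mcS.sift exF.1 (C := N[Mb (al cS) [6]]) (ls := [6, 8, 4, 10]) (Ss := sV) (N := 126)
    (le_inf (nrm vcS vcS (ws := [[6], [6, 6], [6, 6, 6, 6], [6, 6, 6, 6, 6, 6]]) (by decide +kernel))
      ((Mb.mono (by decide)).trans cS_L0))
    (pr := fun b q => bor (!lm [lget cB onem 7, lget cB onem 8, lget cB onem 9] b) (cmm q (lget cS onem 6)))
    (hPX v (by decide +kernel) fun g hg y c => by
      have := (comm_zp c (alS6 ▸ Mb_one _ _ (conj_mem_of_mem_norm (inv_mem hg) m))).map (MulAut.conj g)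
      simpa [mul_assoc] using this)
    (fun g hg => sub_of (f := fun k => force (mulf k (lget cS onem 6)) fun y => !t7.all fun p _ _ =>
      !Nat.beq y (mulf p k)) e.2 (by decide +kernel) ((enL.2 g).1 hg.2) (by
        rw [force_eq, Bool.not_eq_true', ← Bool.not_eq_true]
        intro o
        have := keys_all o ((e7.2 _).1 (conj_mem_of_mem_norm hg.1 m))
        simp [← v, ← mt_mul] at this))
    (Mb.le fun i hi => (enL.2 _).2 (T.has_sound (by rw [mt_al vcS]; revert i; decide +kernel))) e.1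
    (by decide +kernel)).1
  refine H0_inf (E8_A7.trans A7_v) (E8_A7.trans le_sup_right) fun g hg => (Mb.le ?_ : _ ≤ _)
    (sub_of (f := fun k => cmm k (lget cS onem 6)) (enumB vcS (ls := [6, 10]) (t := t21') (n := 21)
      (by decide +kernel)).2 (by decide +kernel) (((enumB vcS (t := tN) (n := 126) (by decide +kernel)).2 g).1
      (this.le ⟨Mb.norm (List.forall_mem_singleton.2 ?_), hg.2⟩)) (v ▸ cmm_iff.2 (mem_cent1.1 hg.1)))
  · simp only [List.forall_mem_cons, List.not_mem_nil, false_imp_iff, implies_true, and_true]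
    exact ⟨mem_sup_left (alS6 ▸ mem_zpowers _), mem_sup_right (mem_w vcS vB (w := [7, 9, 8, 7, 9]) (by decide +kernel))⟩
  · rwa [alS6, commute_iff_conj.1 (mem_cent1.1 hg.1)]

end Cfsg.Agent.CW
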