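import Cfsg.Agent.CW.M5
import Cfsg.Agent.CX.Ab5

/-! # The centralizer of an involution of the third class -/

set_option autoImplicit false
set_option maxRecDepth 100000

namespace Cfsg.Agent.CW

open Cfsg Cfsg.Spor Cfsg.Agent.GT Cfsg.Agent.TT Cfsg.Agent.TC Cfsg.Agent.XL Cfsg.Agent.M24 Cfsg.Agent.Leech
  Cfsg.Agent.CoS Subgroup MulAction
open scoped commutatorElement

/-- the alternating group of degree four -/
noncomputable def A4 : Subgroup Co1 := Mb (al cB) [5, 6]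
/-- the alternating group of degree six -/
noncomputable def A6 : Subgroup Co1 := Mb (al cB) [5, 6, 7, 8]

theorem A4_A6 : A4 ≤ A6 := Mb.mono (by decide)
theorem A6_A7 : A6 ≤ A7 := Mb.mono (by decide)
theorem A7_s : A7 ≤ C1[z0] ⊓ C1[s0] := le_inf (A7_A9.trans A9_le) (cen vB mt_s0 (by decide +kernel))

theorem L0_A4 : L0 ≤ C[A4] := fun _ hg => mem_centralizer_iff.2 fun _ hx => (L0_comm hg hx).symm

theorem cG_A6 : Mb (al cG) (List.range 5) ≤ C[A6] := Mb.le fun i hi => mem_centralizer_iff.2 fun _ hx =>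
  (Mb.cent (fun j hj => cmm_iff.1 (by rw [mt_al vcG, mt_al vB]; revert i j; decide +kernel)) hx).symm

theorem E8_A4 : E8 ≤ N[A4] :=
  nrm vcE vB (ws := [[5], [6], [5, 5], [6, 6], [6, 5, 5], [6, 6, 5], [5, 5, 6], [5, 6, 6]]) (by decide +kernel)

theorem nc12 : ¬ Commute (xx 2) (xx 1) := by rw [← cmm_iff, mt_xx, mt_xx]; decide +kernel

variable {G : Type*} [Group G] [Finite G] {K M : Subgroup (Co1 × G)} {z t y : G} {A B : Subgroup Co1} {p r : Co1 × G}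

/-- the pairs over `A` -/
def BA (K : Subgroup (Co1 × G)) (A : Subgroup Co1) : Subgroup (Co1 × G) := K ⊓ A.comap (MonoidHom.fst _ _)
/-- the graph on the centralizer of `A` -/
def TA (K M : Subgroup (Co1 × G)) (A : Subgroup Co1) : Subgroup (Co1 × G) := K ⊓ C[BA K A] ⊔ M ⊓ C[BA K A]
/-- the graph on the centralizer of `t0` -/
noncomputable def TH (K M : Subgroup (Co1 × G)) : Subgroup (Co1 × G) := TA K M A4 ⊔ BA K E8

omit [Finite G] in
theorem TA_le : TA K M A ≤ C[BA K A] := sup_le inf_le_right inf_le_right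

omit [Finite G] in
theorem TA_mono (e : A ≤ B) : TA K M B ≤ TA K M A :=
  have := cent_anti (inf_le_inf_left K (comap_mono (f := MonoidHom.fst Co1 G) e))
  sup_le_sup (inf_le_inf_left _ this) (inf_le_inf_left _ this)

omit [Finite G] in
theorem TA_GY (hr : r ∈ BA K A) : TA K M A ≤ GY K M r.1 r.2 :=
  have : C[BA K A] ≤ C1[r.1].prod C1[r.2] := fun _ a =>
    ⟨mem_cent1.2 (congrArg Prod.fst (a r hr).symm), mem_cent1.2 (congrArg Prod.snd (a r hr).symm)⟩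
  sup_le_sup (inf_le_inf_left _ this) (inf_le_inf_left _ this)

omit [Finite G] in
theorem TH_le : TH K M ≤ K ⊔ M := sup_le (sup_le_sup inf_le_left inf_le_left) (inf_le_left.trans le_sup_left)

variable (h : RH z0 s0 z K M)
include h

omit [Finite G] in
theorem exB {a : Co1} (hA : A ≤ A9) (ha : a ∈ A) : ∃ b, (a, b) ∈ BA K A :=
  let ⟨b, c⟩ := h.kz.fst a (A9_le (hA ha)); ⟨b, c, ha⟩

omit [Finite G] in
theorem BA_M (hA : A ≤ A7) : BA K A ≤ M := fun _ a => h.mem a.1 (cent_le_norm_VV (A7_s (hA a.2)))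

omit [Finite G] in
theorem TA_K (hp : p ∈ K) (e : p.1 ∈ C[A]) : p ∈ TA K M A :=
  mem_sup_left ⟨hp, fun _ hq => h.kz.gr.comm hq.1 hp (e _ hq.2)⟩

omit [Finite G] in
theorem TA_U : Mb (al cG) (List.range 5) ≤ (TA K M A6).map (MonoidHom.fst _ _) := Mb.le fun i hi => by
  have c := cG_A6 (Mb.of hi)
  by_cases e : i = 2
  · obtain ⟨b, d⟩ := h.nf _ v4.nb
    rw [e, show al cG 2 = bb from mt_inj (by rw [bb, mt_al vcG, mt_al vB]; decide +kernel)] at c ⊢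
    exact ⟨_, mem_sup_right ⟨d, fun _ hq => h.gn.comm (BA_M h A6_A7 hq) d (c _ hq.2)⟩, rfl⟩
  · obtain ⟨b, d⟩ := h.kz.fst (al cG i) (mem_cent1.2 (cmm_iff.1 (by
      rw [mt_al vcG, mt_z0]; clear c; revert i; decide +kernel)))
    exact ⟨_, TA_K h d c, rfl⟩

omit [Finite G] in
theorem TA_L : L0 ≤ (TA K M A4).map (MonoidHom.fst _ _) := exF.2.1.le.trans (Mb.le fun i hi => by
  have k := (TA_U h).trans (map_mono (TA_mono A4_A6))
  by_cases e : i = 7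
  · exact k (e ▸ mem_w vcF vcG (w := [2]) (by decide +kernel))
  by_cases e' : i = 8
  · exact k (e' ▸ mem_w vcF vcG (w := wi7) (by decide +kernel))
  obtain ⟨b, d⟩ := h.kz.fst (al cF i) (mem_cent1.2 (cmm_iff.1 (by
    rw [mt_al vcF, mt_z0]; revert i; decide +kernel)))
  exact ⟨_, TA_K h d (L0_A4 (exF.2.1.ge (Mb.of hi))), rfl⟩)

omit [Finite G] in
theorem TA_fst (hp : p ∈ C[BA K A4]) : p.1 ∈ L0 :=
  have k : ∀ i ∈ [5, 6], p.1 ∈ C1[al cB i] := fun _ hi =>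
    let ⟨_, b⟩ := exB h (A4_A6.trans (A6_A7.trans A7_A9)) (Mb.of hi); mem_cent1.2 (congrArg Prod.fst (hp _ b).symm)
  ⟨k 5 (by decide), k 6 (by decide)⟩

theorem TA_gr : Gr (TA K M A4) ∧ ∀ p ∈ TA K M A4, p.2 = 1 → p = 1 := by
  obtain ⟨y, hy⟩ := exB h (A4_A6.trans (A6_A7.trans A7_A9)) (Mb.of (i := 5) (by decide))
  obtain ⟨y', hy'⟩ := exB h (A4_A6.trans (A6_A7.trans A7_A9)) (Mb.of (i := 6) (by decide))
  have o : (orderOf (xx 1)).Prime := CX.ord3 ▸ Nat.prime_three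
  have gr : Gr (TA K M A4) := h.kz.gr_of_ker hy.1 o (fun p a => (CX.ker3 h hy.1 p (TA_GY hy a)).1) inf_le_left
    (TA_le.trans (cent_le_norm _)) hy' nc12
  exact ⟨gr, fun p a e => gr p a (CX.eq_one_of_zp o ((CX.ker3 h hy.1 p (TA_GY hy a)).2 e) nc12
    (congrArg Prod.fst (TA_le a _ hy')))⟩

theorem TH_bi : Bi (TH K M) H0 := by
  have n : BA K E8 ≤ N[TA K M A4] := fun p a => by
    have b : p ∈ N[C[BA K A4]] := norm_le_norm_cent _ (mem_normalizer_of_conj fun r c =>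
      ⟨K.mul_mem (K.mul_mem a.1 c.1) (K.inv_mem a.1), conj_mem_of_mem_norm (H := A4) (E8_A4 a.2) c.2⟩)
    exact le_norm_sup (zpowers_le.2 (le_norm_inf (zpowers_le.2 (le_normalizer a.1)) (zpowers_le.2 b)
      (mem_zpowers p))) (le_norm_inf (zpowers_le.2 (le_normalizer (BA_M h E8_A7 a))) (zpowers_le.2 b)) (mem_zpowers p)
  have o : ∀ p ∈ BA K E8, p.1 ∈ L0 → p = 1 := fun p a b => h.kz.gr p a.1 (mem_bot.1 (L0_E8 ▸ mem_inf.2 ⟨b, a.2⟩))
  refine ⟨(TA_gr h).1.sup (h.kz.gr.mono inf_le_left) n fun p a r b e => ?_, fun p hp e => ?_, fun c hc => ?_,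
    fun p hp => ?_⟩
  · rw [(TA_gr h).1 p a (e.trans (congrArg Prod.fst (o r b (e ▸ TA_fst h (TA_le a)))))]
    exact one_mem _
  · obtain ⟨a, b, c, d, rfl⟩ := (mem_sup_of_le_norm' n).1 hp
    have k := o c d (TA_fst h fun q hq => h.kz.comm' hq.1 d.1 (by
      rw [eq_inv_of_mul_eq_one_right e]
      exact Commute.inv_right (congrArg Prod.snd (TA_le b q hq))))
    rw [k, mul_one] at e ⊢
    exact (TA_gr h).2 a b e
  · obtain ⟨p, a, rfl⟩ : c ∈ (TH K M).map (MonoidHom.fst _ _) := sup_le ((TA_L h).trans (map_mono le_sup_left))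
      (fun c hc => let ⟨_, b⟩ := exB h (E8_A7.trans A7_A9) hc; ⟨_, mem_sup_right b, rfl⟩) hc
    exact ⟨p.2, a⟩
  · exact (sup_le (fun p a => mem_sup_left (TA_fst h (TA_le a))) fun p a => mem_sup_right a.2 :
      TH K M ≤ H0.comap (MonoidHom.fst _ _)) hp

omit [Finite G] in
theorem TH_K (hp : p ∈ K) (e : p.1 ∈ C1[t0]) : p ∈ TH K M := by
  obtain ⟨r, a, b⟩ : p.1 ∈ (K ⊓ TH K M).map (MonoidHom.fst _ _) := (Mb.le fun i hi => by
    rcases (by decide : ∀ i ∈ List.range 8, i ∈ [0, 1, 2, 3, 4] ∨ i ∈ [5, 6, 7]) i hi with c | c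
    · obtain ⟨b, d⟩ := h.kz.fst _ (exD0.1.ge (Mb.of hi)).1
      exact ⟨_, ⟨d, mem_sup_left (TA_K h d (L0_A4 (cen2 vcE (by decide +kernel) (Mb.of c))))⟩, rfl⟩
    · obtain ⟨b, d⟩ := exB h (E8_A7.trans A7_A9) (Mb.of c)
      exact ⟨_, ⟨d.1, mem_sup_right d⟩, rfl⟩ : _ ≤ _) (exD0.1.le ⟨h.kz.c1 hp, e⟩)
  exact h.kz.gr.ext a.1 hp b ▸ a.2

theorem TH_cent (ht : (t0, t) ∈ K) : C1[t] ≤ up (TH K M) H0 := by
  have b := TH_bi h
  have hz := TH_K h h.kz.mem (mem_cent1.2 (L0_t0 z0_L0))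
  have zL := (b.mem hz).2 z0_L0
  have u : UF C1[t] (up (TH K M) H0) z := by
    refine ⟨fun x hx => ?_, up_mono le_sup_left zL, (b.sq hz).2 lt0.zz, fun e => lt0.ne ((b.one hz).1 e),
      fun g hg hy => ?_⟩
    · obtain ⟨a, c, d⟩ := mem_up.1 hx
      exact mem_cent1.2 (congrArg Prod.snd (b.gr.comm d (TH_K h ht (mem_cent1.2 rfl)) (mem_cent1.1 (H0_le c))).eq)
    obtain ⟨y, c, d⟩ := mem_up.1 hy
    obtain ⟨k, e, r, rfl, o⟩ := clsH y c ((b.sq d).1 (by simpa using conj_mul_self g⁻¹ ((b.sq hz).2 lt0.zz)))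
      fun o => lt0.ne ((b.one hz).1 (conj_eq_one_iff.1 (show g⁻¹ * z * g⁻¹⁻¹ = 1 by
        rw [inv_inv]; exact (b.one d).2 o)))
    obtain ⟨κ, f⟩ := b.fst k e
    have n : ∀ ρ, (r, ρ) ∈ TH K M → g * κ * ρ * (g * κ)⁻¹ = z := fun ρ a => by
      rw [mul_inv_rev, ← mul_assoc, mul_assoc g, mul_assoc g, ← (b.cj d f a).2 rfl]; group
    rcases o with rfl | ⟨o, l, hl, s⟩
    · obtain ⟨a, j⟩ := h.kz.snd (g * κ) (mem_cent1.2 (commute_iff_conj.2 (n z hz)))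
      have f' := mem_up.2 ⟨k, e, f⟩
      have := TH_K h j (mem_cent1.2 (congrArg Prod.fst (h.kz.comm' j ht (mem_cent1.1 (mul_mem hg (mem_cent1.2
        (congrArg Prod.snd (b.gr.comm f (TH_K h ht (mem_cent1.2 rfl)) (mem_cent1.1 (H0_le e))).eq))))).eq))
      exact (mul_mem_cancel_right f').1 (mem_up.2 ⟨a, b.le _ this, this⟩)
    have rz : r ∈ C1[z0] := s.elim (fun s => s ▸ mul_mem (mul_mem hl t0_C) (inv_mem hl)) fun s =>
      s ▸ mul_mem (mul_mem hl (mul_mem t0_C (alS4 ▸ cen vcS (ls := [4]) mt_z0 (by decide +kernel) (Mb.of (by decide)))))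
        (inv_mem hl)
    obtain ⟨ρ, j⟩ := h.kz.fst r rz
    have i : IsConj z ρ := (isConj_iff.2 ⟨_, n ρ (TH_K h j (mem_cent1.2 o))⟩).symm
    have q := eqv_k h (a := r) (inv_mem hl)
    rcases s with s | s <;> rw [show l⁻¹ * r * l⁻¹⁻¹ = _ by rw [s, inv_inv, ← mul_assoc, inv_mul_cancel_right,
      inv_mul_cancel_left]] at q
    · obtain ⟨_, v, w⟩ := q ρ j
      exact absurd (i.trans w) (not_conj_zt h v)
    · obtain ⟨_, v, w⟩ := (q.trans (eqv_tu h)) ρ j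
      exact absurd (i.trans w) (not_conj_zc h v)
  have l : R0 ≤ H0 := sylR.1
  obtain ⟨E, c, d⟩ := uf_der2 u (b.syl sylR le_rfl) (up_mono le_sup_left ((b.mem hz).2 ((enU.2 _).2 (T.has_sound (by
      rw [mt_z0]; decide +kernel)))))
    ((up_mono (le_inf (R0_le.trans inf_le_right) le_rfl)).trans ((b.cent hz).ge.trans inf_le_left))
    (up_mono le_sup_left) (b.comm le_sup_left ▸ up_mono perfL)
    (by rw [b.comm le_rfl, b.comm (der1_le _)]; exact up_mono der2) zL ((b.relIndex le_sup_left le_rfl).trans idxL)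
  obtain ⟨_, _, _, _, _, s⟩ := b.ts ts0 le_sup_left hz
  exact d (s.le c)

theorem comm_x (hp : p ∈ TA K M A6) (hr : r ∈ K) (e : Commute p.1 r.1)
    (c : ∀ j ∈ [7, 8], Commute r.1 (xx 2 * al cB j * xx 1 * (xx 2 * al cB j)⁻¹)) : Commute p r := by
  have l := A6_A7.trans A7_A9
  obtain ⟨y, hy⟩ := exB h l (Mb.of (i := 5) (by decide) : _ ∈ A6)
  have k : ∀ j ∈ [7, 8], ∃ s ∈ K, s.1 ∈ zpowers (xx 2 * al cB j * xx 1 * (xx 2 * al cB j)⁻¹) ∧ s.2 = ⁅p, r⁆.2 :=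
    fun j hj => by
    obtain ⟨α, a⟩ := exB h l (mul_mem (Mb.of (i := 6) (by decide)) (Mb.of (i := j) (by revert j; decide)) : _ ∈ A6)
    have b := c j hj
    rw [show al cB 6 = xx 2 from rfl] at a
    generalize xx 2 * al cB j = x at a b ⊢
    have d := TA_le hp _ a
    obtain ⟨n, o⟩ := (CX.ker3 h hy.1 _ (commutator_le_of_le_norm_left le_normalizer (commutator_mem_commutator
      (TA_GY hy hp) (mem_sup_left (h.kz.gr.memY hy.1 (mul_mem (mul_mem (inv_mem a.1) hr) a.1) (by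
        have := b.map (MulAut.conj x⁻¹)
        simpa [mul_assoc] using this)))))).1 (commutatorElement_eq_one_iff_commute.2 (by
        have d1 : Commute x p.1 := congrArg Prod.fst d
        exact (d1.symm.inv_right.mul_right e).mul_right d1.symm))
    refine ⟨(x, α) * (xx 1, y) ^ n * (x, α)⁻¹, K.mul_mem (K.mul_mem a.1 (K.zpow_mem hy.1 n)) (K.inv_mem a.1),
      ⟨n, conj_zpow⟩, ?_⟩
    have : ⁅p, r⁆ = (x, α) * ⁅p, (x, α)⁻¹ * r * (x, α)⁆ * (x, α)⁻¹ := by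
      rw [conjugate_commutatorElement, d]; group
    rw [this]
    exact congrArg (α * · * α⁻¹) o
  obtain ⟨s, a, b, d⟩ := k 7 (by decide)
  obtain ⟨s', a', b', d'⟩ := k 8 (by decide)
  obtain rfl := h.kz.ext' a a' (d.trans d'.symm)
  have := h.kz.gr s a (CX.eq_one_of_zp (by
    rw [← MulAut.conj_apply, MulEquiv.orderOf_eq, CX.ord3]; exact Nat.prime_three) b (fun o => ?_)
    (comm_zp (Commute.refl _) b'))
  · exact Prod.ext e (commutatorElement_eq_one_iff_commute.1 (d.symm.trans (congrArg Prod.snd this)))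
  · rw [show (xx 2 * al cB 7)⁻¹ = xx 2 * al cB 7 from inv_of_sq (sq1.1 (by
      simp only [mt_mul, mt_xx, mt_al vB]; decide +kernel)), show (xx 2 * al cB 8)⁻¹ = xx 2 * al cB 8 from
      inv_of_sq (sq1.1 (by simp only [mt_mul, mt_xx, mt_al vB]; decide +kernel)), ← cmm_iff] at o
    simp only [mt_mul, mt_xx, mt_al vB] at o
    revert o; decide +kernel

theorem comm_A {ls : List ℕ} (hp : p ∈ TA K M A6) (hl : ∀ i ∈ ls, i ∈ [5, 6, 7, 8] ∨ i ∈ [9, 10, 11])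
    (hc : Mb (al cB) ls ≤ C1[p.1]) (hr : r ∈ K) (e : r.1 ∈ Mb (al cB) ls) : Commute r.2 p.2 := by
  obtain ⟨s, a, b⟩ : r.1 ∈ (K ⊓ C1[p]).map (MonoidHom.fst _ _) := (Mb.le fun i hi => by
    rcases hl i hi with c | c
    · obtain ⟨b, d⟩ := exB h (A6_A7.trans A7_A9) (Mb.of c : _ ∈ A6)
      exact ⟨_, ⟨d.1, mem_cent1.2 (TA_le hp _ d)⟩, rfl⟩
    · obtain ⟨b, d⟩ := h.kz.fst _ (A9_le (Mb.of (i := i) (by clear hi; revert i; decide)))
      refine ⟨_, ⟨d, mem_cent1.2 (comm_x h hp d (mem_cent1.1 (hc (Mb.of hi))).symm fun j hj => ?_).symm⟩, rfl⟩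
      rw [show (xx 2 * al cB j)⁻¹ = xx 2 * al cB j from inv_of_sq (sq1.1 (by
        simp only [mt_mul, mt_xx, mt_al vB]; revert j; decide +kernel)), ← cmm_iff]
      simp only [mt_mul, mt_xx, mt_al vB]
      clear hi d
      revert i j; decide +kernel : _ ≤ _) e
  exact congrArg Prod.snd (mem_cent1.1 (h.kz.gr.ext a.1 hr b ▸ a.2))

theorem exv : ∃ v, (v0, v) ∈ TH K M ∧ ∀ p ∈ K, p.1 ∈ A7 → Commute p.2 v := by
  obtain ⟨p, a, b⟩ := TA_U h (mem_w vB vcG (i := 12) (w := [0, 2, 4, 2, 4, 2, 3, 1]) (by decide +kernel))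
  obtain ⟨_, v⟩ := p
  obtain rfl : _ = v0 := b
  exact ⟨v, mem_sup_left (TA_mono A4_A6 a), fun _ => comm_A h a (by decide) A7_v⟩

theorem exw : ∃ w, (w0, w) ∈ TH K M ∧ ∀ p ∈ K, p.1 ∈ A9 → Commute p.2 w := by
  obtain ⟨p, a, b⟩ := TA_U h (mem_w vB vcG (i := 13) (w := [2, 4, 3, 2, 4, 2]) (by decide +kernel))
  obtain ⟨_, v⟩ := p
  obtain rfl : _ = w0 := b
  exact ⟨v, mem_sup_left (TA_mono A4_A6 a), fun _ => comm_A h a (by decide) A9_w⟩

omit h in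
/-- the diagonal -/
def dg {X : Type*} [Group X] (H : Subgroup X) : Subgroup (X × X) := H.map ((MonoidHom.id X).prod (MonoidHom.id X))

omit h in
theorem rh_dg {X : Type*} [Group X] (z s : X) : RH z s z (dg C1[z]) (dg N[VV z s]) := by
  have g : ∀ H : Subgroup X, ∀ p ∈ dg H, (p.1 = 1 → p = 1) ∧ (p.2 = 1 → p = 1) := by
    rintro H _ ⟨x, -, rfl⟩; exact ⟨fun e => Prod.ext e e, fun e => Prod.ext e e⟩
  refine ⟨⟨fun p a => (g _ p a).1, fun p a => (g _ p a).2, fun c a => ⟨c, c, a, rfl⟩, fun c a => ⟨c, c, a, rfl⟩, ?_,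
    z, mem_cent1.2 rfl, rfl⟩, fun p a => (g _ p a).1, fun c a => ⟨c, c, a, rfl⟩, ?_, ?_⟩
  · rintro _ ⟨x, a, rfl⟩; exact mem_cent1.2 (Prod.ext (mem_cent1.1 a) (mem_cent1.1 a))
  · rintro _ ⟨x, a, rfl⟩; exact a
  · rintro _ ⟨x, -, rfl⟩ a; exact ⟨x, a, rfl⟩

omit h in
theorem C_t0 : C1[t0] = H0 := le_antisymm (fun x hx => by
  obtain ⟨a, b, c⟩ := mem_up.1 (TH_cent (rh_dg z0 s0) ⟨t0, t0_C, rfl⟩ hx)
  obtain ⟨_, -, e⟩ : (a, x) ∈ dg ⊤ := (sup_le (map_mono le_top) (map_mono le_top) : _ ≤ dg ⊤) (TH_le c)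
  obtain ⟨rfl, rfl⟩ := Prod.ext_iff.1 e
  exact b) H0_le

theorem TH_kz (ht : (t0, t) ∈ K) : KZ (TH K M) (t0, t) :=
  have b := TH_bi h
  have m := TH_K h ht (mem_cent1.2 rfl)
  ⟨b.gr, b.gr', fun c hc => b.fst c (C_t0.le hc), fun _ hd => let ⟨c, _, e⟩ := mem_up.1 (TH_cent h ht hd); ⟨c, e⟩,
    fun p hp => mem_cent1.2 (b.gr.comm hp m (mem_cent1.1 (H0_le (b.le p hp)))), m⟩

omit h in
theorem cen_w : C1[t0] ⊓ C1[w0] ≤ zpowers w0 ⊔ A9 := C_t0 ▸ cenW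

omit h in
theorem cen_v : C1[t0] ⊓ C1[v0] ≤ zpowers v0 ⊔ A7 := C_t0 ▸ cenV

theorem iface : ∃ (t v w : G) (T : Subgroup (Co1 × G)), (t0, t) ∈ K ∧ KZ T (t0, t) ∧ (∀ p ∈ K, p.1 ∈ C1[t0] → p ∈ T) ∧
    (v0, v) ∈ T ∧ (w0, w) ∈ T ∧ (∀ p ∈ K, p.1 ∈ A7 → Commute p.2 v) ∧ ∀ p ∈ K, p.1 ∈ A9 → Commute p.2 w :=
  let ⟨t, a⟩ := h.kz.fst t0 t0_C
  let ⟨v, b, c⟩ := exv h
  let ⟨w, d, e⟩ := exw h
  ⟨t, v, w, _, a, TH_kz h a, fun _ => TH_K h, b, d, c, e⟩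

end Cfsg.Agent.CW
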